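import Mathlib
import Cfsg.Agent.H8.Deg3
import Cfsg.Agent.H8.Ord1
import Cfsg.Agent.H2.Basic

/-!
A finite group whose irreducible character degrees are at most `b` has an abelian subgroup of
index at most `(b!)^2`.
-/

set_option autoImplicit false
set_option linter.dupNamespace false

namespace Cfsg.Agent.H2.BDeg

open Cfsg Cfsg.Agent.H4 Cfsg.Agent.H5 Cfsg.Agent.H8
open scoped ComplexConjugate commutatorElement

universe u

/-- all degrees are at most `b` -/
def Bd (G : Type*) [Group G] (b : ℕ) : Prop := ∀ d ∈ charDegrees G, d ≤ b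

/-- there is an abelian subgroup of index at most `m` -/
def Ab (G : Type*) [Group G] (m : ℕ) : Prop :=
  ∃ A : Subgroup G, (∀ x ∈ A, ∀ y ∈ A, x * y = y * x) ∧ A.index ≤ m

variable {G : Type*} [Group G] [Finite G] {b : ℕ}

theorem Bd.sub (h : Bd G b) (K : Subgroup G) : Bd K b := fun _ hd => by
  obtain ⟨e, he, h1⟩ := cd_le_subgroup K hd
  exact h1.trans (h e he)

omit [Finite G] in
theorem Bd.quot (h : Bd G b) (K : Subgroup G) [K.Normal] : Bd (G ⧸ K) b := fun d hd =>
  h d (cd_quotient_subset K hd)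

omit [Finite G] in
theorem Ab.mono {m n : ℕ} (h : Ab G m) (hmn : m ≤ n) : Ab G n := by
  obtain ⟨A, h1, h2⟩ := h
  exact ⟨A, h1, h2.trans hmn⟩

omit [Finite G] in
theorem Ab.of_sub (H : Subgroup G) {m : ℕ} (h : Ab H m) : Ab G (H.index * m) := by
  obtain ⟨A, h1, h2⟩ := h
  refine ⟨A.map H.subtype, ?_, ?_⟩
  · rintro _ ⟨x, hx, rfl⟩ _ ⟨y, hy, rfl⟩
    rw [← map_mul, ← map_mul, h1 x hx y hy]
  · rw [Subgroup.index_map_subtype, mul_comm]
    exact Nat.mul_le_mul_left _ h2

/-- a character vanishing off a subgroup -/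
theorem index_le_sq {θ : G → ℂ} (hθ : IsIrrCharacter G θ) {d : ℕ} (hd : θ 1 = d)
    (K : Subgroup G) (h : ∀ g, g ∉ K → θ g = 0) : K.index ≤ d ^ 2 := by
  haveI := Fintype.ofFinite G
  haveI := Fintype.ofFinite K
  have h1 := (classInner_restrict_self_eq_iff θ K).2 h
  rw [hθ.classInner_self, mul_one] at h1
  have h2 := congrArg Complex.re h1
  rw [classInner_self_re] at h2
  have h3 : ∑ g : K, ‖θ g‖ ^ 2 ≤ ∑ _g : K, (d : ℝ) ^ 2 := Finset.sum_le_sum fun g _ => by
    have := hθ.isCharacter.norm_le (g : G)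
    rw [hd, Complex.norm_natCast] at this
    exact pow_le_pow_left₀ (norm_nonneg _) this 2
  rw [Finset.sum_const, Finset.card_univ, nsmul_eq_mul, ← Nat.card_eq_fintype_card] at h3
  have h4 : (0 : ℝ) < Nat.card K := by exact_mod_cast Nat.card_pos
  rw [inv_mul_eq_div, div_eq_iff h4.ne', Complex.natCast_re] at h2
  rw [h2, mul_comm] at h3
  exact_mod_cast le_of_mul_le_mul_left h3 h4

/-- an irreducible character over one of maximal degree restricts to it -/
theorem res_eq_of_max (hb : Bd G b) {H : Type*} [Group H] [Fintype H] (f : H →* G) {θ : H → ℂ}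
    (hθ : IsIrrCharacter H θ) (hd : θ 1 = b) {χ : G → ℂ} (hχ : IsIrrCharacter G χ)
    (h : classInner (fun x => χ (f x)) θ ≠ 0) : (fun x => χ (f x)) = θ := by
  refine eq_of_constituent_of_degree_le (hχ.isCharacter.comp f) hθ h ?_
  have h1 := hb _ (charDegree_mem_cd hχ)
  simp only [map_one]
  rw [← hχ.isCharacter.charDegree_cast, hd, Complex.natCast_re, Complex.natCast_re]
  exact_mod_cast h1

/-- a character of a subgroup of maximal degree vanishes off the core -/
theorem vanish_off_core (hb : Bd G b) (H : Subgroup G) {θ : H → ℂ}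
    (hθ : IsIrrCharacter H θ) (hd : θ 1 = b) (x : H) (hx : (x : G) ∉ H.normalCore) : θ x = 0 := by
  haveI := Fintype.ofFinite G
  haveI := Fintype.ofFinite H
  set η := indHom H.subtype θ with hη
  have hcf : IsClassFunction G η := indHom_isClassFunction _ _
  have h1 : (fun x : H => η (H.subtype x)) = classInner (fun x : H => η (H.subtype x)) θ • θ := by
    refine eq_smul_of_forall_constituent (hcf.comp H.subtype) hθ fun φ hφ h2 => ?_
    obtain ⟨ψ, hψ, h3, h4⟩ := exists_constituent_inner_comp_ne_zero H.subtype hcf h2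
    rw [hη, inner_indHom_left _ _ hψ.isClassFunction, ne_eq, classInner_eq_zero_symm] at h3
    rw [res_eq_of_max hb H.subtype hθ hd hψ h3] at h4
    exact (hθ.eq_of_classInner_ne_zero hφ h4).symm
  set c := classInner (fun x : H => η (H.subtype x)) θ with hc
  have h2 : c = H.index := by
    have h3 := congrFun h1 1
    simp only [map_one, Pi.smul_apply, smul_eq_mul] at h3
    rw [hη, indHom_one_of_injective _ H.subtype_injective, H.range_subtype] at h3
    exact (mul_right_cancel₀ hθ.apply_one_ne_zero h3).symm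
  have h3 : classInner η η = H.index := by
    conv_lhs => rw [hη, inner_indHom_right _ _ hcf]
    exact h2
  have h4 : ∀ g, g ∉ H → η g = 0 := by
    refine (classInner_restrict_self_eq_iff η H).1 ?_
    have h5 : (fun x : H => η x) = c • θ := h1
    rw [h5, classInner_smul_left, classInner_smul_right, hθ.classInner_self, h3, h2]
    simp
  have h5 : η x = 0 := by
    by_contra h6
    refine hx fun g => ?_
    by_contra h7
    exact h6 ((hcf.of_isConj (isConj_iff.2 ⟨g, rfl⟩)).trans (h4 _ h7))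
  have h6 := congrFun h1 x
  simp only [Pi.smul_apply, smul_eq_mul, Subgroup.subtype_apply] at h6
  rw [h5, h2] at h6
  exact (mul_eq_zero.1 h6.symm).resolve_left (by exact_mod_cast H.index_ne_zero_of_finite)

theorem half_of_nonabelian (hb : Bd G b) (K : Subgroup G) [K.Normal]
    (h : commutator (G ⧸ K) ≠ ⊥) : Bd K (b / 2) := fun d hd => by
  haveI := Fintype.ofFinite G
  haveI := Fintype.ofFinite K
  rw [Nat.le_div_iff_mul_le two_pos]
  obtain ⟨θ, hθ, h1⟩ := mem_cd.1 hd
  obtain ⟨χ, hχ, h2⟩ := exists_irr_over_hom (NEmb.ofNormal K).f (NEmb.ofNormal K).inj hθ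
  obtain ⟨e, he, h3⟩ := (NEmb.ofNormal K).degree_dvd_index hθ hχ h2
  have h4 : e * d ≤ b := hb _ (mem_cd_of hχ (by rw [h3, h1, Nat.cast_mul]))
  have he0 : e ≠ 0 := by
    rintro rfl
    exact hχ.apply_one_ne_zero (by rw [h3]; simp)
  by_cases he1 : e = 1
  · subst he1
    have h5 : (fun x => χ ((NEmb.ofNormal K).f x)) = θ :=
      eq_of_constituent_of_degree_le (hχ.isCharacter.comp _) hθ h2 (by
        simp only [map_one]; rw [h3]; simp)
    obtain ⟨e', he', h6⟩ := exists_cd_ne_one h
    have h7 := hb _ (cd_mul_of_res_irr K hχ (by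
      have : (fun k : K => χ k) = θ := h5
      rw [this]; exact hθ) (d := d) (by rw [h3, h1]; simp) he')
    have h8 := pos_of_mem_cd he'
    have : 2 ≤ e' := by omega
    nlinarith
  · have : 2 ≤ e := by omega
    nlinarith

/-- a nontrivial element with a small class -/
theorem exists_small_class [Nontrivial G] (hb : Bd G b) :
    ∃ x : G, x ≠ 1 ∧ (Subgroup.centralizer ({x} : Set G)).index ≤ b ^ 2 := by
  classical
  haveI := Fintype.ofFinite G
  haveI := Fintype.ofFinite (ConjClasses G)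
  by_contra h
  push Not at h
  have h1 := sum_mul_card_centralizer (G := G) (R := ℕ) (fun _ => 1)
  simp only [one_mul, Nat.cast_id, Finset.sum_const, Finset.card_univ, smul_eq_mul, mul_one] at h1
  set n := Nat.card G with hn
  set k := Fintype.card (ConjClasses G) with hk
  have h2 : (b ^ 2 + 1) * ∑ g ∈ Finset.univ.erase (1 : G),
      Nat.card (Subgroup.centralizer ({g} : Set G)) ≤ (n - 1) * n := by
    rw [Finset.mul_sum]
    refine (Finset.sum_le_card_nsmul _ _ n fun g hg => ?_).trans ?_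
    · rw [hn, ← (Subgroup.centralizer ({g} : Set G)).index_mul_card]
      exact Nat.mul_le_mul_right _ (h g (Finset.ne_of_mem_erase hg))
    · rw [Finset.card_erase_of_mem (Finset.mem_univ _), Finset.card_univ, smul_eq_mul,
        ← Nat.card_eq_fintype_card]
  rw [← Finset.add_sum_erase _ _ (Finset.mem_univ (1 : G))] at h1
  have h3 : Nat.card (Subgroup.centralizer ({1} : Set G)) = n := by
    have : Subgroup.centralizer ({1} : Set G) = ⊤ := by
      rw [eq_top_iff]; intro g _; simp [Subgroup.mem_centralizer_iff]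
    rw [this, Subgroup.card_top]
  rw [h3] at h1
  have h4 := sum_charDegree_sq (G := G)
  rw [← Finset.add_sum_erase _ _ (Finset.mem_univ (irrOne G)), charDegree_irrOne] at h4
  have h5 : ∑ χ ∈ Finset.univ.erase (irrOne G), charDegree (χ : G → ℂ) ^ 2 ≤ (k - 1) * b ^ 2 := by
    refine (Finset.sum_le_card_nsmul _ _ (b ^ 2) fun χ _ => ?_).trans ?_
    · exact Nat.pow_le_pow_left (hb _ (charDegree_mem_cd χ.2)) 2
    · rw [Finset.card_erase_of_mem (Finset.mem_univ _), Finset.card_univ, smul_eq_mul,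
        ← Nat.card_eq_fintype_card, card_irr_eq_card_conjClasses, Nat.card_eq_fintype_card]
  have hn1 : 1 < n := Finite.one_lt_card
  have hk0 : 0 < k := Fintype.card_pos
  obtain ⟨k', hk'⟩ : ∃ k', k = k' + 1 := ⟨k - 1, by omega⟩
  obtain ⟨n', hn'⟩ : ∃ n', n = n' + 1 := ⟨n - 1, by omega⟩
  rw [← hn] at h4
  generalize ∑ g ∈ Finset.univ.erase (1 : G), Nat.card (Subgroup.centralizer ({g} : Set G)) = S
    at h1 h2
  generalize ∑ χ ∈ Finset.univ.erase (irrOne G), charDegree (χ : G → ℂ) ^ 2 = T at h4 h5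
  rw [hk', Nat.add_sub_cancel] at h5
  have h6 : S = k' * n := by rw [hk'] at h1; nlinarith
  rw [h6, ← mul_assoc] at h2
  have h7 := Nat.le_of_mul_le_mul_right h2 (by omega)
  have h8 : k' = 0 := by
    have : n - 1 = T := by omega
    nlinarith
  subst h8
  omega

theorem solvable_of_bd_four (G : Type u) [Group G] [Finite G] :
    Bd G 4 → Group.IsSolvable G := by
  refine card_induction (P := fun G _ _ => Bd G 4 → Group.IsSolvable G) ?_ G
  intro G _ _ ih hb
  by_cases h0 : Subsingleton G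
  · infer_instance
  rw [not_subsingleton_iff_nontrivial] at h0
  by_cases h1 : ∃ N : Subgroup G, N.Normal ∧ N ≠ ⊥ ∧ N ≠ ⊤
  · obtain ⟨N, hN, h2, h3⟩ := h1
    haveI := ih N (by
      rw [← N.card_mul_index]
      exact lt_mul_of_one_lt_right Nat.card_pos (Subgroup.one_lt_index_of_ne_top h3)) (hb.sub N)
    haveI := ih (G ⧸ N) (by
      rw [← N.card_mul_index]
      exact lt_mul_of_one_lt_left Nat.card_pos ((Subgroup.one_lt_card_iff_ne_bot N).2 h2))
      (hb.quot N)
    exact solvable_of_ker_le_range N.subtype (QuotientGroup.mk' N) (by simp)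
  haveI : IsSimpleGroup G := ⟨fun N hN => by
    by_contra h2
    push Not at h2
    exact h1 ⟨N, hN, h2.1, h2.2⟩⟩
  by_contra hns
  have hZ : Subgroup.center G = ⊥ := by
    refine (IsSimpleGroup.eq_bot_or_eq_top_of_normal _ inferInstance).resolve_right fun h2 => hns ?_
    exact isSolvable_of_comm fun a b => by
      have : b ∈ Subgroup.center G := h2 ▸ Subgroup.mem_top b
      exact Subgroup.mem_center_iff.1 this a
  have hC : commutator G = ⊤ := by
    refine (IsSimpleGroup.eq_bot_or_eq_top_of_normal _ inferInstance).resolve_left fun h2 => hns ?_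
    exact isSolvable_of_comm (comm_of_derivedSeries_one (by rwa [derivedSeries_one]))
  obtain ⟨z, hz, hz3⟩ : ∃ z : G, z ≠ 1 ∧
      Nat.Coprime 3 (Subgroup.centralizer ({z} : Set G)).index := by
    haveI : Fact (Nat.Prime 3) := ⟨Nat.prime_three⟩
    obtain ⟨P⟩ := (inferInstance : Nonempty (Sylow 3 G))
    have key : ∀ z : G, (P : Subgroup G) ≤ Subgroup.centralizer ({z} : Set G) →
        Nat.Coprime 3 (Subgroup.centralizer ({z} : Set G)).index := fun z h =>
      (Nat.prime_three.coprime_iff_not_dvd).2 fun h3 =>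
        P.not_dvd_index (h3.trans (Subgroup.index_dvd_of_le h))
    by_cases hP : (P : Subgroup G) = ⊥
    · obtain ⟨z, hz⟩ := exists_ne (1 : G)
      exact ⟨z, hz, key z (hP ▸ bot_le)⟩
    · haveI : Nontrivial P := (Subgroup.nontrivial_iff_ne_bot _).2 hP
      haveI := P.isPGroup'.center_nontrivial
      obtain ⟨z, hz⟩ := exists_ne (1 : Subgroup.center P)
      refine ⟨z.1.1, fun h => hz (Subtype.ext (Subtype.ext h)), key _ fun g hg => ?_⟩
      rw [Subgroup.mem_centralizer_iff]
      rintro _ rfl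
      exact (congrArg Subtype.val (Subgroup.mem_center_iff.1 z.2 ⟨g, hg⟩)).symm
  classical
  have h2 := sum_irr_degree_mul hz
  rw [← Finset.add_sum_erase _ _ (Finset.mem_univ (irrOne G)), irrOne_apply, irrOne_apply] at h2
  have h3 : ∀ χ ∈ Finset.univ.erase (irrOne G), (χ : G → ℂ) 1 * (χ : G → ℂ) z =
      2 * (((charDegree (χ : G → ℂ) / 2 : ℕ) : ℂ) * (χ : G → ℂ) z) := by
    intro χ hχ
    have h4 : (χ : G → ℂ) ≠ fun _ => 1 := fun h =>
      Finset.ne_of_mem_erase hχ (Subtype.ext h)
    have h5 := χ.2.charKer_eq_bot_of_simple h4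
    have h6 := hb _ (charDegree_mem_cd χ.2)
    have h7 := χ.2.charDegree_pos
    have h8 := χ.2.isCharacter.charDegree_cast
    have h9 : charDegree (χ : G → ℂ) ≠ 1 := fun h => by
      have := χ.2.commutator_le_charKer_iff.2 (by rw [← h8, h]; simp)
      rw [hC, h5] at this
      exact top_ne_bot (le_bot_iff.1 this)
    by_cases h10 : charDegree (χ : G → ℂ) = 3
    · rcases χ.2.eq_zero_or_norm_eq_of_coprime (d := 3) (by rw [← h8, h10]) hz3 with h | h
      · rw [h]; simp
      · have := χ.2.isCharacter.mem_charCenter.2 h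
        rw [χ.2.charCenter_eq_center h5, hZ] at this
        exact absurd this hz
    · have : charDegree (χ : G → ℂ) = 2 * (charDegree (χ : G → ℂ) / 2) := by omega
      rw [← h8, ← mul_assoc]
      congr 1
      exact_mod_cast this
  rw [Finset.sum_congr rfl h3, ← Finset.mul_sum] at h2
  have h4 : IsIntegral ℤ (∑ χ ∈ Finset.univ.erase (irrOne G),
      ((charDegree (χ : G → ℂ) / 2 : ℕ) : ℂ) * (χ : G → ℂ) z) :=
    IsIntegral.sum _ fun χ _ => (isIntegral_natCast _).mul (χ.2.isCharacter.isIntegral z)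
  generalize ∑ χ ∈ Finset.univ.erase (irrOne G),
      ((charDegree (χ : G → ℂ) / 2 : ℕ) : ℂ) * (χ : G → ℂ) z = α at h2 h4
  have h5 : α = algebraMap ℚ ℂ (-1 / 2) := by
    rw [eq_ratCast]; push_cast; linear_combination h2 / 2
  rw [h5, isIntegral_algebraMap_iff (algebraMap ℚ ℂ).injective] at h4
  obtain ⟨y, hy⟩ := IsIntegrallyClosed.isIntegral_iff.1 h4
  rw [eq_intCast] at hy
  have h6 : (2 * y : ℚ) = -1 := by rw [hy]; norm_num
  have h7 : 2 * y = -1 := by exact_mod_cast h6
  omega

theorem num_four (hb : 5 ≤ b) : b ^ 4 * (b / 2).factorial ^ 2 ≤ b.factorial ^ 2 := by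
  obtain ⟨c, rfl⟩ : ∃ c, b = c + 3 := ⟨b - 3, by omega⟩
  have h1 : ((c + 3) / 2).factorial ≤ c.factorial := Nat.factorial_le (by omega)
  have h2 : (c + 3) ^ 2 * ((c + 3) / 2).factorial ≤ (c + 3).factorial := by
    rw [Nat.factorial_succ, Nat.factorial_succ, Nat.factorial_succ, sq, mul_assoc]
    refine Nat.mul_le_mul_left _ ?_
    rw [← mul_assoc]
    exact Nat.mul_le_mul (by nlinarith) h1
  calc (c + 3) ^ 4 * ((c + 3) / 2).factorial ^ 2
      = ((c + 3) ^ 2 * ((c + 3) / 2).factorial) ^ 2 := by ring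
    _ ≤ _ := Nat.pow_le_pow_left h2 2

theorem num_three (hb : 3 ≤ b) : b ^ 3 * (b / 2).factorial ^ 2 ≤ b.factorial ^ 2 := by
  by_cases h : 5 ≤ b
  · exact (Nat.mul_le_mul_right _ (Nat.pow_le_pow_right (by omega) (by norm_num))).trans
      (num_four h)
  · have : b = 3 ∨ b = 4 := by omega
    rcases this with rfl | rfl <;> decide

theorem inner_mul_of_norm {H : Type*} [Group H] [Fintype H] (φ θ : H → ℂ) (c : ℂ)
    (h : ∀ z, φ z * conj (φ z) = c) :
    classInner (fun z => φ z * θ z) (fun z => φ z * θ z) = c * classInner θ θ := by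
  rw [classInner_def, classInner_def, mul_left_comm, Finset.mul_sum _ _ c]
  congr 1
  refine Finset.sum_congr rfl fun z _ => ?_
  rw [map_mul, ← h z]; ring

/-- a faithful irreducible character of a group of class two vanishes off the centre -/
theorem vanish_off_center (hc : commutator G ≤ Subgroup.center G) {ψ : G → ℂ}
    (hψ : IsIrrCharacter G ψ) (hk : charKer ψ = ⊥) {g : G} (hg : g ∉ Subgroup.center G) :
    ψ g = 0 := by
  rw [Subgroup.mem_center_iff] at hg
  push Not at hg
  obtain ⟨h, hh⟩ := hg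
  have h1 : ⁅h, g⁆ ∈ Subgroup.center G :=
    hc (Subgroup.commutator_mem_commutator (Subgroup.mem_top h) (Subgroup.mem_top g))
  have h2 := apply_mul_of_mem_charCenter (hψ.center_le_charCenter h1) hψ.apply_one_ne_zero g
  have h3 : ⁅h, g⁆ * g = h * g * h⁻¹ := by rw [commutatorElement_def]; group
  rw [h3, ← hψ.isClassFunction.of_isConj (isConj_iff.2 ⟨h, rfl⟩)] at h2
  by_contra h4
  have h5 : ψ ⁅h, g⁆ / ψ 1 = 1 := mul_right_cancel₀ h4 (by rw [← h2, one_mul])
  rw [div_eq_one_iff_eq hψ.apply_one_ne_zero, ← hψ.isCharacter.mem_charKer, hk,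
    Subgroup.mem_bot, commutatorElement_eq_one_iff_mul_comm] at h5
  exact hh h5

theorem case_central (hb : Bd G b) (K : Subgroup G) [K.Normal] (h1 : commutator (G ⧸ K) ≠ ⊥)
    (hmin : ∀ L : Subgroup (G ⧸ K), L.Normal → L ≠ ⊥ → commutator (G ⧸ K) ≤ L)
    (hc : commutator (G ⧸ K) ≤ Subgroup.center (G ⧸ K)) :
    ∃ H : Subgroup G, H.index ≤ b ^ 2 ∧ b ∉ charDegrees H := by
  haveI := Fintype.ofFinite G
  have hs := QuotientGroup.mk'_surjective K
  obtain ⟨e, he, he1⟩ := exists_cd_ne_one h1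
  have heb := hb.quot K e he
  have he0 := pos_of_mem_cd he
  obtain ⟨ψ, hψ, h2⟩ := mem_cd.1 he
  have hk : charKer ψ = ⊥ := by
    by_contra h3
    have := hψ.commutator_le_charKer_iff.1 (hmin _ hψ.isCharacter.charKer_normal h3)
    rw [h2] at this
    exact he1 (by exact_mod_cast this)
  set Z := (Subgroup.center (G ⧸ K)).comap (QuotientGroup.mk' K) with hZ
  haveI := Fintype.ofFinite Z
  have hv : ∀ g, g ∉ Z → ψ (g : G ⧸ K) = 0 := fun g hg => vanish_off_center hc hψ hk hg
  refine ⟨Z, (index_le_sq hψ.inflate h2 Z hv).trans (Nat.pow_le_pow_left heb 2), fun h3 => ?_⟩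
  obtain ⟨θ, hθ, h4⟩ := mem_cd.1 h3
  obtain ⟨χ, hχ, h5⟩ := exists_irr_over_hom Z.subtype Z.subtype_injective hθ
  have h6 := res_eq_of_max hb Z.subtype hθ h4 hχ h5
  have h7 : ∀ z : Z, ψ ((z : G) : G ⧸ K) * conj (ψ ((z : G) : G ⧸ K)) = (e : ℂ) ^ 2 := fun z => by
    have h8 := hψ.isCharacter.mem_charCenter.1 (hψ.center_le_charCenter z.2)
    rw [h2, Complex.norm_natCast] at h8
    rw [Complex.mul_conj, Complex.normSq_eq_norm_sq]
    have h9 : ‖ψ ((z : G) : G ⧸ K)‖ = e := h8
    rw [h9]; push_cast; rfl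
  have h8 := (classInner_restrict_self_eq_iff (fun g : G => ψ (g : G ⧸ K)) Z).2 hv
  have h9 := inner_mul_of_norm (fun z : Z => ψ ((z : G) : G ⧸ K)) (fun _ => 1) _ h7
  simp only [mul_one] at h9
  rw [h9, classInner_one_one, hψ.inflate.classInner_self] at h8
  have h10 := (classInner_restrict_self_eq_iff (fun g : G => ψ (g : G ⧸ K) * χ g) Z).2
    fun g hg => by rw [hv g hg, zero_mul]
  have h11 := inner_mul_of_norm (fun z : Z => ψ ((z : G) : G ⧸ K)) (fun z => χ z) _ h7
  have h12 : (fun z : Z => χ z) = θ := h6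
  rw [h11, h12, hθ.classInner_self, h8] at h10
  have h13 : classInner (fun g : G => ψ (g : G ⧸ K) * χ g) (fun g : G => ψ (g : G ⧸ K) * χ g) = 1 :=
    (mul_left_cancel₀ (by exact_mod_cast Z.index_ne_zero_of_finite) h10).symm
  have h14 : IsIrrCharacter G (fun g : G => ψ (g : G ⧸ K) * χ g) :=
    (hψ.inflate.isCharacter.mul hχ.isCharacter).isIrr_of_classInner_self h13
  have h15 : χ 1 = b := by rw [← h4, ← h12]; rfl
  have h16 := hb (e * b) (mem_cd_of h14 (by
    simp only [QuotientGroup.mk_one, h2, h15, Nat.cast_mul]))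
  have h17 := pos_of_mem_cd h3
  have : 2 ≤ e := by omega
  nlinarith

theorem case_frob (hb : Bd G b) {K N : Subgroup G} (F : FrobQ K N) (hN : N ≠ ⊤)
    (hcop : (K.relIndex N).Coprime N.index) :
    (∃ H : Subgroup G, H.index ≤ b ^ 2 ∧ b ∉ charDegrees H) ∨ (3 ≤ b ∧ K.index ≤ b ^ 3) := by
  have h1 := hb _ F.index_mem_cd
  have h2 := Subgroup.one_lt_index_of_ne_top hN
  by_cases h3 : b ∈ charDegrees N
  · right
    have h4 : N.index * b ∉ charDegrees G := fun h => by
      have := hb _ h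
      nlinarith
    refine ⟨?_, ?_⟩
    · by_contra h5
      have h6 : b = N.index := by omega
      exact (F.mul_mem_or h3).resolve_left h4 (h6 ▸ hcop)
    · obtain ⟨θ, hθ, h5⟩ := mem_cd.1 h3
      have h6 := index_le_sq hθ h5 (K.subgroupOf N)
        ((F.degree_or_vanish hθ h5).resolve_left h4)
      rw [← Subgroup.relIndex_mul_index F.le, pow_succ]
      exact Nat.mul_le_mul h6 h1
  · exact Or.inl ⟨N, by nlinarith, h3⟩

theorem case_nonsolv (hb : Bd G b) (K : Subgroup G) [K.Normal] (h1 : commutator (G ⧸ K) ≠ ⊥)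
    (hmin : ∀ L : Subgroup (G ⧸ K), L.Normal → L ≠ ⊥ → commutator (G ⧸ K) ≤ L)
    (hns : ¬ Group.IsSolvable (G ⧸ K)) :
    (∃ H : Subgroup G, H.index ≤ b ^ 2 ∧ b ∉ charDegrees H) ∨ K.index ≤ b ^ 4 := by
  have hs := QuotientGroup.mk'_surjective K
  haveI : Nontrivial (G ⧸ K) := by
    by_contra h5
    rw [not_nontrivial_iff_subsingleton] at h5
    exact h1 (Subsingleton.elim _ _)
  obtain ⟨x, hx, h2⟩ := exists_small_class (hb.quot K)
  set H := (Subgroup.centralizer ({x} : Set (G ⧸ K))).comap (QuotientGroup.mk' K) with hH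
  have h3 : H.index ≤ b ^ 2 := by rwa [hH, Subgroup.index_comap_of_surjective _ hs]
  by_cases h4 : b ∈ charDegrees H
  swap
  · exact Or.inl ⟨H, h3, h4⟩
  right
  have h5 : H.normalCore ≤ K := by
    by_contra h6
    have h7 := hmin (H.normalCore.map (QuotientGroup.mk' K)) (Subgroup.Normal.map inferInstance _ hs)
      fun h => h6 (by rwa [Subgroup.map_eq_bot_iff, QuotientGroup.ker_mk'] at h)
    have h8 : commutator (G ⧸ K) ≤ Subgroup.centralizer {x} :=
      h7.trans (Subgroup.map_le_iff_le_comap.2 H.normalCore_le)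
    have h9 := hmin (Subgroup.centralizer (commutator (G ⧸ K) : Set (G ⧸ K))) inferInstance
      fun h => hx (by
        rw [← Subgroup.mem_bot, ← h, Subgroup.mem_centralizer_iff]
        intro y hy
        exact (Subgroup.mem_centralizer_iff.1 (h8 hy) x rfl).symm)
    refine hns ⟨⟨2, ?_⟩⟩
    rw [derivedSeries_succ, derivedSeries_one, Subgroup.commutator_eq_bot_iff_le_centralizer]
    exact h9
  obtain ⟨θ, hθ, h6⟩ := mem_cd.1 h4
  have h7 := index_le_sq hθ h6 (K.subgroupOf H) fun g hg =>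
    vanish_off_core hb H hθ h6 g fun h => hg (h5 h)
  rw [← Subgroup.relIndex_mul_index (QuotientGroup.le_comap_mk' K _ : K ≤ H),
    show b ^ 4 = b ^ 2 * b ^ 2 by ring]
  exact Nat.mul_le_mul h7 h3

theorem step (hb : Bd G b) (hna : commutator G ≠ ⊥) :
    (∃ H : Subgroup G, H.index ≤ b ^ 2 ∧ b ∉ charDegrees H) ∨
      ∃ K : Subgroup G, Bd K (b / 2) ∧ K.index * (b / 2).factorial ^ 2 ≤ b.factorial ^ 2 := by
  obtain ⟨K, ⟨hK, hK1⟩, hmax⟩ := (wellFounded_gt (α := Subgroup G)).has_min
    {K | K.Normal ∧ ¬ commutator G ≤ K} ⟨⊥, inferInstance, fun h => hna (le_bot_iff.1 h)⟩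
  have hs' := QuotientGroup.mk'_surjective K
  have e : commutator (G ⧸ K) = (commutator G).map (QuotientGroup.mk' K) := by
    rw [commutator_def, commutator_def, Subgroup.map_commutator, Subgroup.map_top_of_surjective _ hs']
  have h1 : commutator (G ⧸ K) ≠ ⊥ := fun h => hK1 (by
    rwa [e, Subgroup.map_eq_bot_iff, QuotientGroup.ker_mk'] at h)
  have hmin : ∀ L : Subgroup (G ⧸ K), L.Normal → L ≠ ⊥ → commutator (G ⧸ K) ≤ L := by
    intro L hL hL1
    rw [e, Subgroup.map_le_iff_le_comap]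
    by_contra h2
    refine hmax _ ⟨inferInstance, h2⟩
      (lt_of_le_of_ne (QuotientGroup.le_comap_mk' K L) fun h3 => hL1 ?_)
    rw [← Subgroup.map_comap_eq_self_of_surjective hs' L, ← h3, QuotientGroup.map_mk'_self]
  have hh := half_of_nonabelian hb K h1
  by_cases hs : Group.IsSolvable (G ⧸ K)
  · rcases min_nonabelian hs h1 hmin with ⟨p, -, -, h2⟩ | ⟨F, -⟩
    · exact Or.inl (case_central hb K h1 hmin h2)
    · refine (case_frob hb F.comap_mk (fun h3 => ?_) ?_).imp_right fun ⟨h3, h4⟩ =>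
        ⟨K, hh, (Nat.mul_le_mul_right _ h4).trans (num_three h3)⟩
      · have h4 : commutator (G ⧸ K) = ⊤ := by
          rw [← Subgroup.map_comap_eq_self_of_surjective hs' (commutator _), h3,
            Subgroup.map_top_of_surjective _ hs']
        haveI : Nontrivial (G ⧸ K) := by
          by_contra h5
          rw [not_nontrivial_iff_subsingleton] at h5
          exact h1 (Subsingleton.elim _ _)
        exact (Group.IsSolvable.commutator_lt_top_of_nontrivial _).ne h4
      · rw [H9.relIndex_eq_card_map_mk', Subgroup.map_comap_eq_self_of_surjective hs',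
          Subgroup.index_comap_of_surjective _ hs']
        exact F.coprime_bot
  · refine (case_nonsolv hb K h1 hmin hs).imp_right fun h4 =>
      ⟨K, hh, (Nat.mul_le_mul_right _ h4).trans (num_four ?_)⟩
    by_contra h5
    exact hs (solvable_of_bd_four _ fun d hd => (hb.quot K d hd).trans (by omega))

theorem main (b : ℕ) : ∀ (G : Type u) [Group G] [Finite G], Bd G b → Ab G (b.factorial ^ 2) := by
  induction b using Nat.strong_induction_on with
  | _ b ih =>
  intro G _ _ hb
  have hb0 : 1 ≤ b := hb 1 one_mem_cd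
  by_cases hna : commutator G = ⊥
  · refine ⟨⊤, fun x _ y _ => comm_of_derivedSeries_one (by rwa [derivedSeries_one]) x y, ?_⟩
    rw [Subgroup.index_top]
    exact Nat.one_le_pow _ _ b.factorial_pos
  rcases step hb hna with ⟨H, h1, h2⟩ | ⟨K, h1, h2⟩
  · obtain ⟨c, rfl⟩ : ∃ c, b = c + 1 := ⟨b - 1, by omega⟩
    have h3 : Bd H c := fun d hd => by
      have := hb.sub H d hd
      have : d ≠ c + 1 := fun h => h2 (h ▸ hd)
      omega
    refine (Ab.of_sub H (ih c (by omega) H h3)).mono ?_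
    rw [Nat.factorial_succ, mul_pow]
    exact Nat.mul_le_mul_right _ h1
  · exact (Ab.of_sub K (ih (b / 2) (by omega) K h1)).mono h2

end Cfsg.Agent.H2.BDeg
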