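import Mathlib
import Cfsg.Agent.H4.Char4
import Cfsg.Agent.H4.PermChar
import Cfsg.Agent.H2.Perm2

/-! The commutant of a complex representation, and centraliser rings of permutation groups. -/

namespace Cfsg.Agent.H2.Pm
open Cfsg.Agent.H4 Module LinearMap MulAction
open scoped ComplexConjugate

variable {G V : Type*} [Group G] [Fintype G] [AddCommGroup V] [Module ℂ V] [FiniteDimensional ℂ V]
  (ρ : Representation ℂ G V) {χ : G → ℂ} {A B : End ℂ V}

/-- `A` commutes with the representation. -/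
def Comm (A : End ℂ V) : Prop := ∀ g, A * ρ g = ρ g * A

/-- Twisted trace function. -/
noncomputable def th (A : End ℂ V) : G → ℂ := fun g => trace ℂ V (ρ g * A)

/-- Trace of `A` on the multiplicity space of `χ`. -/
noncomputable def om (χ : G → ℂ) (A : End ℂ V) : ℂ := classInner (th ρ A) χ

/-- Projection on the isotypic component of `χ`. -/
noncomputable def proj (χ : G → ℂ) : End ℂ V := (χ 1 / Nat.card G) • ∑ g, conj (χ g) • ρ g

variable {ρ}

section
omit [Fintype G] [FiniteDimensional ℂ V]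

theorem Comm.mul (hA : Comm ρ A) (hB : Comm ρ B) : Comm ρ (A * B) := fun g => by
  rw [mul_assoc, hB g, ← mul_assoc, hA g, mul_assoc]

theorem Comm.sub (hA : Comm ρ A) (hB : Comm ρ B) : Comm ρ (A - B) := fun g => by
  rw [mul_sub, sub_mul, hA g, hB g]

theorem Comm.th_class (hA : Comm ρ A) : IsClassFunction G (th ρ A) := fun g h => by
  unfold th
  rw [map_mul ρ, map_mul ρ, mul_assoc, ← hA, mul_assoc, trace_mul_comm, mul_assoc, mul_assoc,
    ← map_mul ρ, inv_mul_cancel, map_one, mul_one]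

theorem th_one : th ρ 1 = ρ.character := by ext g; simp [th, Representation.character]

end

omit [FiniteDimensional ℂ V] in
theorem comm_proj (h : IsClassFunction G χ) : Comm ρ (proj ρ χ) := fun g => by
  unfold proj
  rw [smul_mul_assoc, mul_smul_comm]
  exact congrArg _ (sum_smul_rep_comm ρ h.conj g)

omit [FiniteDimensional ℂ V] in
theorem Comm.mul_proj (hA : Comm ρ A) : A * proj ρ χ = proj ρ χ * A := by
  simp only [proj, mul_smul_comm, smul_mul_assoc, Finset.mul_sum, Finset.sum_mul, hA _]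

omit [FiniteDimensional ℂ V] in
theorem om_eq (A : End ℂ V) : χ 1 * om ρ χ A = trace ℂ V (proj ρ χ * A) := by
  simp only [om, th, proj, classInner_def, smul_mul_assoc, Finset.sum_mul, map_smul, map_sum,
    smul_eq_mul, mul_comm (conj _)]
  ring

omit [FiniteDimensional ℂ V] in
theorem om_sub : om ρ χ (A - B) = om ρ χ A - om ρ χ B := by
  rw [om, om, om, ← classInner_sub_left]; congr 1; ext; simp [th, mul_sub]

omit [FiniteDimensional ℂ V] in
theorem om_add : om ρ χ (A + B) = om ρ χ A + om ρ χ B := by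
  rw [om, om, om, ← classInner_add_left]; congr 1; ext; simp [th, mul_add]

omit [FiniteDimensional ℂ V] in
theorem om_smul (c : ℂ) : om ρ χ (c • A) = c * om ρ χ A := by
  rw [om, om, ← classInner_smul_left]; congr 1; ext; simp [th]

omit [FiniteDimensional ℂ V] in
theorem om_one : om ρ χ 1 = classInner ρ.character χ := by rw [om, th_one]

theorem th_proj (h : IsIrrCharacter G χ) : th ρ (proj ρ χ) = classInner ρ.character χ • χ := by
  classical
  ext x
  have h1 : ∀ g, trace ℂ V (ρ x * ρ g) = ∑ ψ : IrrCharacter G,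
      classInner ρ.character ψ * (ψ : G → ℂ) (g * x) := fun g => by
    rw [trace_mul_comm, ← map_mul]
    exact (isCharacter_character ρ).isClassFunction.apply_eq_sum _
  have h2 : ∀ ψ : IrrCharacter G, ∑ g, conj (χ g) * (classInner ρ.character ψ * (ψ : G → ℂ) (g * x))
      = if ψ = ⟨χ, h⟩ then classInner ρ.character χ * (Nat.card G / χ 1 * χ x) else 0 := fun ψ => by
    simp only [mul_comm (conj _), mul_assoc, ← Finset.mul_sum,
      ψ.2.sum_apply_mul_mul_conj h.isClassFunction]
    split_ifs with e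
    · rw [e, h.classInner_self, mul_one]
    · rw [ψ.2.classInner_of_ne h fun e' => e (Subtype.ext e')]; simp
  simp only [th, proj, mul_smul_comm, Finset.mul_sum, map_smul, map_sum, h1, smul_eq_mul]
  rw [Finset.sum_comm]
  simp only [← Finset.mul_sum]
  simp only [h2, Finset.sum_ite_eq', Finset.mem_univ, if_true, Pi.smul_apply, smul_eq_mul]
  have := h.apply_one_ne_zero
  have := natCard_ne_zero' (G := G)
  field_simp

omit [FiniteDimensional ℂ V] in
theorem proj_idem (h : IsIrrCharacter G χ) : proj ρ χ * proj ρ χ = proj ρ χ := by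
  have h1 : ∀ x, ∑ g, conj (χ g⁻¹) * conj (χ (g * x)) = Nat.card G / χ 1 * conj (χ x) := fun x => by
    have := congrArg conj (h.sum_apply_mul_mul_conj h.isClassFunction x)
    simp only [map_sum, map_mul, map_div₀, h.classInner_self, h.isCharacter.conj_apply_one,
      map_natCast, mul_one] at this
    simp only [h.isCharacter.apply_inv, ← this, mul_comm]
  have h2 : (∑ g, conj (χ g) • ρ g) * ∑ g, conj (χ g) • ρ g =
      (Nat.card G / χ 1) • ∑ g, conj (χ g) • ρ g := by
    nth_rewrite 1 [← Equiv.sum_comp (Equiv.inv G)]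
    rw [Finset.sum_mul, Finset.smul_sum]
    simp only [smul_smul, ← h1, Finset.sum_smul]
    rw [Finset.sum_comm]
    refine Finset.sum_congr rfl fun g _ => ?_
    rw [← Equiv.sum_comp (Equiv.mulLeft g), Finset.mul_sum]
    simp [smul_smul, ← map_mul, mul_comm]
  have := h.apply_one_ne_zero
  have := natCard_ne_zero' (G := G)
  rw [proj, smul_mul_smul_comm, h2, smul_smul]
  congr 1
  field_simp

theorem character_range_proj (h : IsIrrCharacter G χ) :
    (rangeSubrep ρ _ (comm_proj h.isClassFunction)).toRepresentation.character =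
      classInner ρ.character χ • χ :=
  (funext (character_rangeSubrep ρ _ _ (proj_idem h))).trans (th_proj h)

theorem om_eq_zero (h : IsIrrCharacter G χ) (hm : classInner ρ.character χ = 0) (A : End ℂ V) :
    om ρ χ A = 0 := by
  have h1 := congrFun (character_range_proj (ρ := ρ) h) 1
  rw [hm, zero_smul, Representation.char_one, Pi.zero_apply, Nat.cast_eq_zero,
    Submodule.finrank_eq_zero] at h1
  have h2 := om_eq (ρ := ρ) (χ := χ) A
  rw [range_eq_bot.1 h1, zero_mul, map_zero] at h2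
  exact (mul_eq_zero.1 h2).resolve_left h.apply_one_ne_zero

theorem Comm.mul_proj_eq (h : IsIrrCharacter G χ) (hm : classInner ρ.character χ = 1)
    (hA : Comm ρ A) : A * proj ρ χ = om ρ χ A • proj ρ χ := by
  have h1 := character_range_proj (ρ := ρ) h
  rw [hm, one_smul] at h1
  haveI := isIrreducible_of_isIrrCharacter _ (h1.symm ▸ h)
  obtain ⟨c, hc⟩ := schur_scalar (rangeSubrep ρ _ (comm_proj h.isClassFunction)).toRepresentation
    (A.restrict (by rintro _ ⟨v, rfl⟩; exact ⟨A v, congr($(hA.mul_proj.symm) v)⟩))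
    fun g => LinearMap.ext fun v => Subtype.ext congr($(hA g) v)
  have h2 : A * proj ρ χ = c • proj ρ χ :=
    LinearMap.ext fun v => congrArg Subtype.val congr($hc ⟨_, v, rfl⟩)
  have h3 := om_eq (ρ := ρ) (χ := χ) A
  have h4 := congrFun (th_proj (ρ := ρ) h) 1
  rw [th, map_one, one_mul, hm, one_smul] at h4
  rw [← hA.mul_proj, h2, map_smul, h4, smul_eq_mul, mul_comm c] at h3
  rw [h2, mul_left_cancel₀ h.apply_one_ne_zero h3]

theorem om_mul (h : IsIrrCharacter G χ) (hm : classInner ρ.character χ = 1)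
    (hA : Comm ρ A) (B : End ℂ V) : om ρ χ (A * B) = om ρ χ A * om ρ χ B := by
  refine mul_left_cancel₀ h.apply_one_ne_zero ?_
  rw [om_eq, ← mul_assoc, ← hA.mul_proj, hA.mul_proj_eq h hm, smul_mul_assoc, map_smul, ← om_eq,
    smul_eq_mul, mul_left_comm]

omit [FiniteDimensional ℂ V] in
theorem Comm.trace_eq (hA : Comm ρ A) :
    trace ℂ V A = ∑ χ : IrrCharacter G, om ρ χ A * (χ : G → ℂ) 1 := by
  have := hA.th_class.apply_eq_sum 1
  rwa [th, map_one, one_mul] at this

theorem Comm.isIntegral_om (hA : Comm ρ A) (hi : IsIntegral ℤ A) (h : IsCharacter G χ) :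
    IsIntegral ℤ (om ρ χ A) := by
  classical
  have hint := DirectSum.isInternal_submodule_of_iSupIndep_of_iSup_eq_top
    A.independent_maxGenEigenspace A.iSup_maxGenEigenspace_eq_top
  have hfin := WellFoundedGT.finite_ne_bot_of_iSupIndep A.independent_maxGenEigenspace
  have hg : ∀ g μ, Set.MapsTo (ρ g) (A.maxGenEigenspace μ) (A.maxGenEigenspace μ) := fun g μ =>
    End.mapsTo_maxGenEigenspace_of_comm (hA g) μ
  have hA' : ∀ μ, Set.MapsTo A (A.maxGenEigenspace μ) (A.maxGenEigenspace μ) := fun μ =>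
    End.mapsTo_maxGenEigenspace_of_comm (Commute.refl A) μ
  let U : ℂ → Subrepresentation ρ := fun μ => ⟨A.maxGenEigenspace μ, fun g _ hv => hg g μ hv⟩
  have : th ρ A = ∑ μ ∈ hfin.toFinset, μ • (U μ).toRepresentation.character := by
    ext g
    rw [th, trace_eq_sum_trace_restrict' hint hfin (f := ρ g * A) fun μ => (hg g μ).comp (hA' μ),
      Finset.sum_apply]
    refine Finset.sum_congr rfl fun μ _ => ?_
    refine trace_comp_eq_mul_of_commute_of_isNilpotent (f := (ρ g).restrict (hg g μ))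
      (g := A.restrict (hA' μ)) μ (LinearMap.ext fun v => Subtype.ext congr($((hA g).symm) v)) ?_
    exact A.isNilpotent_restrict_maxGenEigenspace_sub_algebraMap μ
  rw [om, this, classInner_sum_left]
  refine IsIntegral.sum _ fun μ hμ => ?_
  obtain ⟨n, hn⟩ := (isCharacter_character (U μ).toRepresentation).classInner_nat h
  rw [classInner_smul_left, hn]
  refine IsIntegral.mul ?_ (isIntegral_algebraMap (x := (n : ℤ)))
  obtain ⟨v, hv⟩ := End.HasEigenvalue.exists_hasEigenvector (f := A) (μ := μ)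
    (End.HasUnifEigenvalue.lt zero_lt_one (hfin.mem_toFinset.1 hμ))
  obtain ⟨q, hq, hq'⟩ := hi
  refine ⟨q, hq, ?_⟩
  have h1 := End.aeval_apply_of_hasEigenvector (p := q.map (algebraMap ℤ ℂ)) hv
  rw [Polynomial.aeval_map_algebraMap, Polynomial.aeval_def, hq', Polynomial.eval_map] at h1
  exact (smul_eq_zero.1 h1.symm).resolve_right hv.2

theorem mult_le_one (hc : ∀ A B, Comm ρ A → Comm ρ B → A * B = B * A) (h : IsIrrCharacter G χ) :
    classInner ρ.character χ = 0 ∨ classInner ρ.character χ = 1 := by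
  obtain ⟨n, σ, hσ, rfl⟩ := h
  rw [classInner_character_eq_finrank, Nat.cast_eq_zero, Nat.cast_eq_one]
  refine Nat.le_one_iff_eq_zero_or_eq_one.1 ?_
  rcases subsingleton_or_nontrivial (Representation.IntertwiningMap σ ρ) with h0 | h0
  · rw [finrank_zero_of_subsingleton]; omega
  obtain ⟨φ, hφ⟩ := exists_ne (0 : Representation.IntertwiningMap σ ρ)
  refine finrank_le_one φ fun ψ => ?_
  obtain ⟨r₀, hr₀⟩ := φ.toLinearMap.exists_leftInverse_of_injective (ker_eq_bot.2
    ((Representation.IsIrreducible.injective_or_eq_zero φ).resolve_right hφ))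
  let r : V →ₗ[ℂ] (Fin n → ℂ) := (Nat.card G : ℂ)⁻¹ • ∑ g, σ g ∘ₗ r₀ ∘ₗ ρ g⁻¹
  have hr : ∀ w, r (φ w) = w := fun w => by
    have : ∀ g, σ g (r₀ (ρ g⁻¹ (φ w))) = w := fun g => by
      rw [← φ.isIntertwining, show r₀ (φ (σ g⁻¹ w)) = σ g⁻¹ w from congr($hr₀ _)]
      simp
    simp [r, this, ← Nat.cast_smul_eq_nsmul ℂ, smul_smul]
  have hr' : ∀ x v, r (ρ x v) = σ x (r v) := fun x v => by
    simp only [r, LinearMap.smul_apply, LinearMap.sum_apply, comp_apply, map_smul, map_sum]
    rw [← Equiv.sum_comp (Equiv.mulLeft x)]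
    simp
  have hC : ∀ θ : Representation.IntertwiningMap σ ρ, Comm ρ (θ.toLinearMap ∘ₗ r) := fun θ g =>
    LinearMap.ext fun v => by
      change θ (r (ρ g v)) = ρ g (θ (r v))
      rw [hr', θ.isIntertwining]
  obtain ⟨c, hc'⟩ := schur_scalar σ (r ∘ₗ ψ.toLinearMap) fun g => LinearMap.ext fun w => by
    change r (ψ (σ g w)) = σ g (r (ψ w))
    rw [ψ.isIntertwining, hr']
  refine ⟨c, Representation.IntertwiningMap.ext (LinearMap.ext fun w => ?_)⟩
  have h1 : φ (r (ψ (r (φ w)))) = ψ (r (φ (r (φ w)))) := congr($(hc _ _ (hC φ) (hC ψ)) (φ w))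
  rw [hr, hr, show r (ψ w) = c • w from congr($hc' w), map_smul] at h1
  exact h1

theorem comm_of_mult_free (hm : ∀ χ, IsIrrCharacter G χ →
    classInner ρ.character χ = 0 ∨ classInner ρ.character χ = 1) (hA : Comm ρ A) (hB : Comm ρ B)
    (h : ∀ χ, IsIrrCharacter G χ → classInner ρ.character χ = 1 → om ρ χ A = 0) :
    trace ℂ V (A * B) = 0 := by
  rw [(hA.mul hB).trace_eq]
  refine Finset.sum_eq_zero fun χ _ => ?_
  rcases hm χ χ.2 with h1 | h1
  · rw [om_eq_zero χ.2 h1, zero_mul]
  · rw [om_mul χ.2 h1 hA, h χ χ.2 h1, zero_mul, zero_mul]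

theorem dvd_of_isIntegral {f k : ℕ} {α : ℂ} (hα : IsIntegral ℤ α) (h : (k : ℂ) = f * α) : f ∣ k := by
  rcases Nat.eq_zero_or_pos f with rfl | hf
  · simpa using h
  have h1 : α = algebraMap ℚ ℂ (k / f) := by
    have : (f : ℂ) ≠ 0 := by exact_mod_cast hf.ne'
    simp [h, this]
  rw [h1, isIntegral_algebraMap_iff (algebraMap ℚ ℂ).injective] at hα
  obtain ⟨y, hy⟩ := IsIntegrallyClosed.isIntegral_iff.1 hα
  rw [h1, ← hy] at h
  exact Int.natCast_dvd_natCast.1 ⟨y, by simp only [eq_intCast, map_intCast] at h; exact_mod_cast h⟩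

section perm
open Matrix
variable {Ω : Type*} [Fintype Ω] [DecidableEq Ω] [MulAction G Ω] {M N : Matrix Ω Ω ℂ}

/-- Invariant matrices. -/
def InvM (G : Type*) [Group G] {Ω R : Type*} [MulAction G Ω] (M : Matrix Ω Ω R) : Prop :=
  ∀ (g : G) x y, M (g • x) (g • y) = M x y

omit [Fintype G] [DecidableEq Ω] in
theorem InvM.mul {R : Type*} [Semiring R] {M N : Matrix Ω Ω R} (hM : InvM G M) (hN : InvM G N) :
    InvM G (M * N) := fun g x y => by
  rw [mul_apply, mul_apply, ← Equiv.sum_comp (toPerm g)]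
  simp [hM g, hN g]

omit [Fintype G] in
theorem InvM.comm (hM : InvM G M) : Comm (permRep ℂ G Ω) (toLin' M) := fun g =>
  LinearMap.ext fun v => funext fun x => by
    change ∑ y, M x y * v (g⁻¹ • y) = ∑ y, M (g⁻¹ • x) y * v y
    rw [← Equiv.sum_comp (toPerm g⁻¹) fun y => M (g⁻¹ • x) y * v y]
    simp [hM g⁻¹]

omit [Fintype G] in
theorem Comm.invM {A : End ℂ (Ω → ℂ)} (hA : Comm (permRep ℂ G Ω) A) : InvM G (toMatrix' A) :=
  fun g x y => by
    have : A (permRep ℂ G Ω g (Pi.single y 1)) (g • x) = A (Pi.single y 1) (g⁻¹ • g • x) :=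
      congr($(hA g) (Pi.single y 1) (g • x))
    rw [inv_smul_smul] at this
    rw [toMatrix'_apply, toMatrix'_apply, ← this]
    refine congrArg (fun w => A w (g • x)) (funext fun z => ?_)
    simp [permRep_apply, Pi.single_apply, inv_smul_eq_iff]

omit [Fintype G] in
theorem th_mat (M : Matrix Ω Ω ℂ) (g : G) :
    th (permRep ℂ G Ω) (toLin' M) g = ∑ x, M (g⁻¹ • x) x := by
  rw [th, trace_eq_matrix_trace ℂ (Pi.basisFun ℂ Ω), LinearMap.toMatrix_eq_toMatrix']
  refine Finset.sum_congr rfl fun x _ => ?_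
  simp [permRep_apply]

omit [Fintype G] [DecidableEq Ω] in
theorem character_permRep :
    (permRep ℂ G Ω).character = fun g => (Nat.card (fixedBy Ω g) : ℂ) := by
  classical
  ext g
  rw [← th_one, End.one_eq_id, ← toLin'_one, th_mat]
  simp only [one_apply, inv_smul_eq_iff]
  simp [fixedBy, eq_comm, Fintype.card_subtype]

omit [Fintype G] in
theorem InvM.th_transpose (hM : InvM G M) (g : G) :
    th (permRep ℂ G Ω) (toLin' Mᵀ) g = th (permRep ℂ G Ω) (toLin' M) g⁻¹ := by
  simp only [th_mat, transpose_apply, inv_inv]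
  exact Finset.sum_congr rfl fun x _ => by rw [← hM g, smul_inv_smul, ← hM g⁻¹ (g • x),
    inv_smul_smul, ← hM g, smul_inv_smul]

theorem om_ones (χ : G → ℂ) : om (permRep ℂ G Ω) χ (toLin' (of fun _ _ => 1)) =
    Fintype.card Ω * classInner (fun _ => 1) χ := by
  rw [om, ← classInner_smul_left]
  congr 1
  ext g
  simp [th_mat]

omit [DecidableEq Ω] in
theorem mult_one [IsPretransitive G Ω] [Nonempty Ω] :
    classInner (permRep ℂ G Ω).character (fun _ => 1) = 1 := by
  rw [character_permRep]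
  exact (classInner_permChar_one Ω).trans (by rw [card_orbits_eq_one, Nat.cast_one])

omit [Fintype G] [DecidableEq Ω] in
theorem InvM.row_sum {R : Type*} [AddCommMonoid R] {M : Matrix Ω Ω R} [IsPretransitive G Ω]
    (hM : InvM G M) (a b : Ω) : ∑ y, M a y = ∑ y, M b y := by
  obtain ⟨g, rfl⟩ := exists_smul_eq G a b
  rw [← Equiv.sum_comp (toPerm g) fun y => M (g • a) y]
  simp [hM g]

theorem InvM.om_triv [IsPretransitive G Ω] (hM : InvM G M) (a : Ω) :
    om (permRep ℂ G Ω) (fun _ => 1) (toLin' M) = ∑ y, M a y := by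
  haveI : Nonempty Ω := ⟨a⟩
  have h1 := om_mul isIrrCharacter_one mult_one hM.comm (toLin' (of fun _ _ => 1))
  have h2 : M * of (fun _ _ => 1) = (∑ y, M a y) • of (fun _ _ : Ω => (1 : ℂ)) := by
    ext x y; simp [mul_apply, hM.row_sum a x]
  rw [End.mul_eq_comp, ← toLin'_mul, h2, map_smul, om_smul, om_ones, classInner_one_one] at h1
  exact (mul_right_cancel₀ (by simp) h1).symm

open Classical in
/-- The adjacency matrix of an orbital. -/
noncomputable def orbM (G : Type*) [Group G] {Ω : Type*} [MulAction G Ω] (R : Type*) [Zero R] [One R]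
    (a b : Ω) : Matrix Ω Ω R := of fun x y => if ∃ g : G, g • a = x ∧ g • b = y then 1 else 0

omit [Fintype G] [DecidableEq Ω] [Fintype Ω] in
theorem invM_orbM (R : Type*) [Zero R] [One R] (a b : Ω) : InvM G (orbM G R a b) := fun g x y => by
  simp only [orbM, of_apply]
  congr 1
  exact propext ⟨fun ⟨k, h1, h2⟩ => ⟨g⁻¹ * k, by simp [mul_smul, h1, h2]⟩,
    fun ⟨k, h1, h2⟩ => ⟨g * k, by simp [mul_smul, h1, h2]⟩⟩

omit [Fintype G] [DecidableEq Ω] in
theorem sum_orbM (R : Type*) [Semiring R] (a b : Ω) :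
    ∑ y, orbM G R a b a y = Nat.card (orbit (stabilizer G a) b) := by
  classical
  simp only [orbM, of_apply, Finset.sum_boole, Nat.card_coe_set_eq, Set.ncard_eq_toFinset_card']
  congr 2
  ext y
  simp only [Finset.mem_filter, Finset.mem_univ, true_and, Set.mem_toFinset]
  exact ⟨fun ⟨g, h1, h2⟩ => ⟨⟨g, h1⟩, h2⟩, fun ⟨g, h⟩ => ⟨g, g.2, h⟩⟩

omit [Fintype G] [DecidableEq Ω] [Fintype Ω] in
theorem orbM_diag (R : Type*) [Zero R] [One R] {a b : Ω} (h : b ≠ a) (x : Ω) :
    orbM G R a b x x = 0 :=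
  if_neg fun ⟨g, h1, h2⟩ => h (MulAction.injective g (h2.trans h1.symm))

theorem dvd_subdegree [IsPretransitive G Ω] (f : ℕ) (hf : ∀ χ : G → ℂ, IsIrrCharacter G χ →
    χ ≠ (fun _ => 1) → classInner (permRep ℂ G Ω).character χ ≠ 0 → ∃ m : ℕ, χ 1 = (f : ℂ) * m)
    {a b : Ω} (hab : b ≠ a) : f ∣ Nat.card (orbit (stabilizer G a) b) := by
  classical
  have hM := invM_orbM (G := G) ℂ a b
  have h1 := hM.comm.trace_eq
  have hi : IsIntegral ℤ (toLin' (orbM G ℂ a b) : End ℂ (Ω → ℂ)) := by
    have := map_isIntegral_int ((toLinAlgEquiv' (R := ℂ) (n := Ω)).toRingEquiv.toRingHom.comp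
      (Int.castRingHom ℂ).mapMatrix) (Matrix.isIntegral (orbM G ℤ a b))
    rwa [show orbM G ℂ a b = (Int.castRingHom ℂ).mapMatrix (orbM G ℤ a b) by
      ext x y; simp [orbM, apply_ite]]
  rw [trace_toLin'_eq, Matrix.trace, Finset.sum_eq_zero fun x _ => (diag_apply _ _).trans
    (orbM_diag ℂ hab x),
    ← Finset.add_sum_erase _ _ (Finset.mem_univ (irrOne G)), irrOne_apply, mul_one] at h1
  erw [hM.om_triv a, sum_orbM] at h1
  have h2 : ∀ χ : IrrCharacter G, ∃ α, IsIntegral ℤ α ∧ (χ ≠ irrOne G →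
      om (permRep ℂ G Ω) χ (toLin' (orbM G ℂ a b)) * (χ : G → ℂ) 1 = f * α) := fun χ => by
    by_cases h0 : classInner (permRep ℂ G Ω).character χ = 0
    · exact ⟨0, isIntegral_zero, fun _ => by rw [om_eq_zero χ.2 h0]; simp⟩
    by_cases h3 : χ = irrOne G
    · exact ⟨0, isIntegral_zero, fun h => absurd h3 h⟩
    obtain ⟨m, hm⟩ := hf χ χ.2 (fun e => h3 (Subtype.ext e)) h0
    exact ⟨_, (hM.comm.isIntegral_om hi χ.2.isCharacter).mul (isIntegral_algebraMap (x := (m : ℤ))),
      fun _ => by rw [hm]; simp; ring⟩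
  choose α h2 h3 using h2
  rw [Finset.sum_congr rfl fun χ hχ => h3 χ (Finset.ne_of_mem_erase hχ), ← Finset.mul_sum] at h1
  exact dvd_of_isIntegral (IsIntegral.sum (s := Finset.univ.erase (irrOne G)) α fun χ _ => h2 χ).neg
    (by linear_combination -h1)

open scoped ComplexOrder in
theorem eq_zero_of_mult_free (hm : ∀ χ, IsIrrCharacter G χ →
    classInner (permRep ℂ G Ω).character χ = 0 ∨ classInner (permRep ℂ G Ω).character χ = 1)
    (hM : InvM G M) (h : ∀ χ, IsIrrCharacter G χ → classInner (permRep ℂ G Ω).character χ = 1 →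
      om (permRep ℂ G Ω) χ (toLin' M) = 0) : M = 0 := by
  have h1 := comm_of_mult_free hm hM.comm (InvM.comm (M := Mᴴ) fun g x y => by
    simp [conjTranspose_apply, hM g]) h
  rwa [End.mul_eq_comp, ← toLin'_mul, trace_toLin'_eq, trace_mul_conjTranspose_self_eq_zero_iff]
    at h1

end perm

end Cfsg.Agent.H2.Pm
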