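import Mathlib

set_option autoImplicit false
open Polynomial Finset

namespace Cfsg.Agent.H2Div

/-- Gauss: for a prime `l ≡ 3 mod 4`, `4 Φ_l = Y² + l Z²` over the rationals. -/
theorem gauss_id_aux (l : ℕ) [hl : Fact l.Prime] (h3 : l % 4 = 3) (E : Type) [Field E] [Algebra ℚ E]
    [IsCyclotomicExtension {l} ℚ E] :
    ∃ Y Z : ℚ[X], (X - 1) * (Y ^ 2 + C (l : ℚ) * Z ^ 2) = 4 * (X ^ l - 1) := by
  classical
  haveI : NeZero l := ⟨hl.out.ne_zero⟩
  haveI : CharZero E := algebraRat.charZero E
  haveI : IsGalois ℚ E := IsCyclotomicExtension.isGalois {l} ℚ E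
  haveI : FiniteDimensional ℚ E := IsCyclotomicExtension.finiteDimensional {l} ℚ E
  have hη := IsCyclotomicExtension.zeta_spec l ℚ E
  set η := IsCyclotomicExtension.zeta l ℚ E with hηd
  let ψ : AddChar (ZMod l) E := AddChar.zmodChar l hη.pow_eq_one
  have hψ : ψ.IsPrimitive := AddChar.zmodChar_primitive_of_primitive_root l hη
  have hψa : ∀ a : ZMod l, ψ a = η ^ a.val := fun a => AddChar.zmodChar_apply _ a
  have hchar : ringChar (ZMod l) ≠ 2 := by
    rw [ZMod.ringChar_zmod_n]; omega
  let χ₀ := quadraticChar (ZMod l)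
  let χ : MulChar (ZMod l) E := χ₀.ringHomComp (Int.castRingHom E)
  have hχa : ∀ a, χ a = ((χ₀ a : ℤ) : E) := fun a => rfl
  have hχ1 : χ ≠ 1 := by
    intro h
    obtain ⟨a, ha⟩ := quadraticChar_exists_neg_one' (F := ZMod l) hchar
    have h1 : χ a = 1 := by rw [h]; exact MulChar.one_apply_coe a
    rw [hχa, show χ₀ a = -1 from ha] at h1
    norm_num at h1
  have hχ2 : χ.IsQuadratic := (quadraticChar_isQuadratic (ZMod l)).comp _
  set g := gaussSum χ ψ with hgd
  have hg : g ^ 2 = -(l : E) := by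
    rw [hgd, gaussSum_sq hχ1 hχ2 hψ, hχa, ZMod.card]
    have : χ₀ (-1) = -1 := by
      rw [show χ₀ (-1) = quadraticChar (ZMod l) (-1) from rfl, quadraticChar_neg_one hchar,
        ZMod.card, ZMod.χ₄_nat_three_mod_four h3]
    rw [this]; simp
  have hl0 : (l : E) ≠ 0 := Nat.cast_ne_zero.mpr hl.out.ne_zero
  have hg0 : g ≠ 0 := by
    intro h; rw [h] at hg; apply hl0; simpa using hg.symm
  let F : ℤ → E[X] := fun e => ∏ a ∈ univ.filter (fun a : ZMod l => χ₀ a = e), (X - C (ψ a))
  have hprod : (X - 1) * (F 1 * F (-1)) = X ^ l - 1 := by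
    have h1 : (X : E[X]) ^ l - 1 = ∏ a : ZMod l, (X - C (ψ a)) := by
      have := X_pow_sub_C_eq_prod hη hl.out.pos (one_pow l)
      rw [map_one] at this
      rw [this]
      refine Finset.prod_nbij' (fun i => (i : ZMod l)) ZMod.val (by simp) ?_ ?_ ?_ ?_
      · intro a _; simpa using ZMod.val_lt a
      · intro i hi; exact ZMod.val_cast_of_lt (by simpa using hi)
      · intro a _; simp
      · intro i hi; rw [hψa, ZMod.val_cast_of_lt (by simpa using hi), mul_one]
    rw [h1, ← Finset.prod_filter_mul_prod_filter_not univ (fun a : ZMod l => a = 0)]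
    congr 1
    · rw [Finset.filter_eq' univ (0 : ZMod l)]; simp
    · rw [← Finset.prod_filter_mul_prod_filter_not (univ.filter fun a : ZMod l => ¬ a = 0)
        (fun a => χ₀ a = 1), Finset.filter_filter, Finset.filter_filter]
      congr 1
      · refine Finset.prod_congr (Finset.filter_congr fun a _ => ?_) fun _ _ => rfl
        constructor
        · intro h; refine ⟨fun h0 => ?_, h⟩
          rw [h0, MulChar.map_zero] at h; norm_num at h
        · exact fun h => h.2
      · refine Finset.prod_congr (Finset.filter_congr fun a _ => ?_) fun _ _ => rfl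
        constructor
        · intro h; refine ⟨fun h0 => ?_, by rw [h]; norm_num⟩
          rw [h0, MulChar.map_zero] at h; norm_num at h
        · intro h; exact (quadraticChar_dichotomy h.1).resolve_left h.2
  have hσ : ∀ σ : E ≃ₐ[ℚ] E, ∃ e : ℤ, (e = 1 ∨ e = -1) ∧ σ g = e * g ∧
      ∀ d : ℤ, (F d).map (σ : E →+* E) = F (e * d) := by
    intro σ
    set c := hη.autToPow ℚ σ with hc
    have hc1 : η ^ (c : ZMod l).val = σ η := hη.autToPow_spec ℚ σ
    have hψσ : ∀ a, σ (ψ a) = ψ (c * a) := by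
      intro a
      rw [hψa, map_pow, ← hc1, ← pow_mul, hψa, ZMod.val_mul]
      conv_lhs => rw [← Nat.mod_add_div ((c : ZMod l).val * a.val) l, pow_add, pow_mul, hη.pow_eq_one,
        one_pow, mul_one]
    have he : χ₀ c = 1 ∨ χ₀ c = -1 := quadraticChar_dichotomy c.ne_zero
    refine ⟨χ₀ c, he, ?_, ?_⟩
    · have h1 : σ g = gaussSum χ (ψ.mulShift c) := by
        rw [hgd, gaussSum, gaussSum, map_sum]
        refine Finset.sum_congr rfl fun a _ => ?_
        rw [map_mul, hψσ, hχa, map_intCast, AddChar.mulShift_apply]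
      have h2 := gaussSum_mulShift χ ψ c
      rw [← h1, hχa, ← hgd] at h2
      rcases he with h | h <;> rw [h] at h2 ⊢ <;> push_cast at h2 ⊢
      · linear_combination h2
      · linear_combination -h2
    · intro d
      simp only [F, Polynomial.map_prod, Polynomial.map_sub, map_X, map_C]
      refine Finset.prod_nbij' (fun a => (c : ZMod l) * a) (fun a => ((c⁻¹ : (ZMod l)ˣ) : ZMod l) * a)
        ?_ ?_ ?_ ?_ ?_
      · intro a ha
        simp only [Finset.mem_filter, Finset.mem_univ, true_and] at ha ⊢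
        rw [map_mul, ha]
      · intro a ha
        simp only [Finset.mem_filter, Finset.mem_univ, true_and] at ha ⊢
        have h1 : χ₀ a = χ₀ c * χ₀ (((c⁻¹ : (ZMod l)ˣ) : ZMod l) * a) := by
          rw [← map_mul, ← mul_assoc, Units.mul_inv, one_mul]
        rw [h1] at ha
        rcases he with h | h <;> rw [h] at ha <;> linarith
      · intro a _; show _ * (_ * a) = a; rw [← mul_assoc, Units.inv_mul, one_mul]
      · intro a _; show _ * (_ * a) = a; rw [← mul_assoc, Units.mul_inv, one_mul]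
      · intro a _; simp [hψσ]
  have hlift : ∀ P : E[X], (∀ σ : E ≃ₐ[ℚ] E, P.map (σ : E →+* E) = P) →
      ∃ Q : ℚ[X], Q.map (algebraMap ℚ E) = P := by
    intro P hP
    have : P ∈ lifts (algebraMap ℚ E) := by
      rw [lifts_iff_coeff_lifts]
      intro n
      rw [IsGalois.mem_range_algebraMap_iff_fixed]
      intro σ
      have := congrArg (fun Q => coeff Q n) (hP σ)
      simpa using this
    exact this
  obtain ⟨Y, hY⟩ := hlift (F 1 + F (-1)) (by
    intro σ
    obtain ⟨e, he, -, h2⟩ := hσ σ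
    rw [Polynomial.map_add, h2, h2]
    rcases he with h | h <;> rw [h] <;> simp [add_comm])
  obtain ⟨Z, hZ⟩ := hlift (C g⁻¹ * (F 1 - F (-1))) (by
    intro σ
    obtain ⟨e, he, h1, h2⟩ := hσ σ
    rw [Polynomial.map_mul, Polynomial.map_sub, h2, h2, map_C]
    have h3 : (σ : E →+* E) g⁻¹ = (e * g)⁻¹ := by rw [← h1]; simp
    rw [h3]
    rcases he with h | h <;> rw [h]
    · simp
    · simp [inv_neg]; ring)
  refine ⟨Y, Z, Polynomial.map_injective (algebraMap ℚ E) (algebraMap ℚ E).injective ?_⟩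
  simp only [Polynomial.map_mul, Polynomial.map_sub, Polynomial.map_add, Polynomial.map_pow, map_X,
    Polynomial.map_one, hY, hZ, Polynomial.map_ofNat, map_natCast, Polynomial.map_natCast]
  have h4 : ((l : ℕ) : E[X]) * (C g⁻¹) ^ 2 = -1 := by
    rw [← map_natCast (C : E →+* E[X]), ← map_pow, ← map_mul, inv_pow, hg]
    rw [show (l : E) * (-(l : E))⁻¹ = -1 by field_simp]; simp
  rw [← hprod]
  linear_combination (X - 1) * (F 1 - F (-1)) ^ 2 * h4

theorem gauss_id (l : ℕ) [hl : Fact l.Prime] (h3 : l % 4 = 3) :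
    ∃ Y Z : ℚ[X], (X - 1) * (Y ^ 2 + C (l : ℚ) * Z ^ 2) = 4 * (X ^ l - 1) :=
  haveI : NeZero l := ⟨hl.out.ne_zero⟩
  @gauss_id_aux l hl h3 (CyclotomicField l ℚ) _ _ (CyclotomicField.isCyclotomicExtension l ℚ)

end Cfsg.Agent.H2Div
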