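import Cfsg.Agent.H2.DivA

set_option autoImplicit false
open Polynomial

namespace Cfsg.Agent.H2Div

theorem sos {K : Type*} [CommRing K] [Algebra ℚ K] (v : K) (hv : v ^ 2 = 5) (n : ℕ) :
    0 < n → (∃ r : ℤ, (n : ℤ) ∣ r ^ 2 + 5) → ∃ a b : K, (n : K) = a ^ 2 + b ^ 2 := by
  induction n using Nat.strong_induction_on with
  | _ n ih =>
  intro hn ⟨r, hr⟩
  by_cases h1 : n = 1
  · exact ⟨1, 0, by rw [h1]; simp⟩
  by_cases h2 : n = 2
  · exact ⟨1, 1, by rw [h2]; norm_num⟩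
  have hn3 : (3 : ℤ) ≤ n := by omega
  obtain ⟨t, ht1, ht2, ht3⟩ : ∃ t : ℤ, -(n : ℤ) ≤ 2 * t ∧ 2 * t ≤ n ∧ (n : ℤ) ∣ t ^ 2 + 5 := by
    have h0 : 0 ≤ r % n := Int.emod_nonneg _ (by omega)
    have h0' : r % n < n := Int.emod_lt_of_pos _ (by omega)
    have hd : (n : ℤ) ∣ (r % n) ^ 2 + 5 := by
      have : (r % n) ^ 2 + 5 = r ^ 2 + 5 + n * ((r / n) * (n * (r / n) - 2 * r)) := by
        rw [Int.emod_def]; ring
      rw [this]; exact dvd_add hr (dvd_mul_right _ _)
    by_cases h : 2 * (r % n) ≤ n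
    · exact ⟨r % n, by omega, h, hd⟩
    · refine ⟨r % n - n, by omega, by omega, ?_⟩
      have : (r % n - n) ^ 2 + 5 = (r % n) ^ 2 + 5 + n * (n - 2 * (r % n)) := by ring
      rw [this]; exact dvd_add hd (dvd_mul_right _ _)
  obtain ⟨k, hk⟩ := ht3
  have hk0 : 0 < k := by
    by_contra h
    have : (n : ℤ) * k ≤ 0 := mul_nonpos_of_nonneg_of_nonpos (by omega) (by omega)
    nlinarith [sq_nonneg t]
  have hkn : k < n := by
    by_contra h
    have h3 : (n : ℤ) * n ≤ n * k := mul_le_mul_of_nonneg_left (by omega) (by omega)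
    have h4 : (2 * t) ^ 2 ≤ (n : ℤ) ^ 2 := sq_le_sq' ht1 ht2
    nlinarith
  obtain ⟨k, rfl⟩ := Int.eq_ofNat_of_zero_le hk0.le
  obtain ⟨c, d, hcd⟩ := ih k (by omega) (by omega) ⟨t, by rw [hk]; exact dvd_mul_left _ _⟩
  have hK : (t : K) ^ 2 + 5 = n * k := by exact_mod_cast congrArg (Int.cast : ℤ → K) hk
  have hq : algebraMap ℚ K (k : ℚ)⁻¹ * (k : K) = 1 := by
    rw [← map_natCast (algebraMap ℚ K), ← map_mul, inv_mul_cancel₀ (by exact_mod_cast hk0.ne'), map_one]
  set q := algebraMap ℚ K (k : ℚ)⁻¹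
  refine ⟨q * (t * c - v * d), q * (t * d + v * c), ?_⟩
  have e1 : (q * (t * c - v * d)) ^ 2 + (q * (t * d + v * c)) ^ 2
      = q ^ 2 * ((t : K) ^ 2 + v ^ 2) * (c ^ 2 + d ^ 2) := by ring
  rw [e1, hv, hK, ← hcd]
  linear_combination (-(n : K)) * (q * k + 1) * hq

theorem exists_good_prime (p : ℕ) (hp : p.Prime) (h30 : p.Coprime 30) :
    ∃ l : ℕ, l.Prime ∧ l % 4 = 3 ∧ p ∣ l + 1 ∧ ∃ r : ℤ, (l : ℤ) ∣ r ^ 2 + 5 := by
  have hco : Nat.Coprime 20 p := by
    have : Nat.Coprime p (30 ^ 2) := Nat.Coprime.pow_right 2 h30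
    exact (Nat.Coprime.coprime_dvd_right (by norm_num) this).symm
  obtain ⟨a, ha1, ha2⟩ := Nat.chineseRemainder hco 3 (p - 1)
  have hp1 := hp.one_lt
  have hca : a.Coprime (20 * p) := by
    refine Nat.Coprime.mul_right ?_ ?_
    · rw [Nat.Coprime, ha1.gcd_eq]; norm_num
    · rw [Nat.Coprime, ha2.gcd_eq]
      exact (Nat.coprime_self_sub_left hp1.le).mpr (Nat.coprime_one_left p)
  obtain ⟨l, -, hl, hla⟩ := Nat.forall_exists_prime_gt_and_modEq 0 (by omega) hca
  have h20 : l % 20 = 3 := ((hla.of_mul_right p).trans ha1)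
  have hlp : l ≡ p - 1 [MOD p] := (hla.of_mul_left 20).trans ha2
  refine ⟨l, hl, by omega, ?_, ?_⟩
  · have := hlp.add_right 1
    rw [Nat.sub_add_cancel hp1.le] at this
    exact (Nat.modEq_zero_iff_dvd).mp (this.trans (Nat.modEq_zero_iff_dvd.mpr dvd_rfl))
  · haveI : Fact l.Prime := ⟨hl⟩
    haveI : Fact (Nat.Prime 5) := ⟨by norm_num⟩
    have hl2 : l ≠ 2 := by omega
    have e1 : legendreSym l (-1) = -1 := by
      rw [legendreSym.at_neg_one hl2, ZMod.χ₄_nat_three_mod_four (by omega)]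
    have e2 : legendreSym l 5 = -1 := by
      have := legendreSym.quadratic_reciprocity_one_mod_four (p := 5) (q := l) (by norm_num) hl2
      rw [show ((5 : ℕ) : ℤ) = 5 from rfl] at this
      rw [this, legendreSym.mod, show (l : ℤ) % ((5 : ℕ) : ℤ) = 3 by omega]
      rw [jacobiSym.legendreSym.to_jacobiSym]; norm_num
    have e3 : legendreSym l (-5) = 1 := by
      rw [show (-5 : ℤ) = -1 * 5 by norm_num, legendreSym.mul, e1, e2]; norm_num
    have h0 : ((-5 : ℤ) : ZMod l) ≠ 0 := by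
      intro h; rw [(legendreSym.eq_zero_iff l _).mpr h] at e3; norm_num at e3
    obtain ⟨r, hr⟩ := (legendreSym.eq_one_iff l h0).mp e3
    refine ⟨r.val, (ZMod.intCast_zmod_eq_zero_iff_dvd _ l).mp ?_⟩
    push_cast at hr ⊢
    rw [ZMod.natCast_zmod_val]
    linear_combination -hr

theorem level {K : Type*} [CommRing K] [Algebra ℚ K] (v m : K) (hv : v ^ 2 = 5) (p : ℕ) (hp : p.Prime)
    (h30 : p.Coprime 30) (hm : m ^ p = 1) (hc : ∀ y : K, (m - 1) * y = 0 → y = 0) :
    ∃ β γ δ : K, 1 + β ^ 2 + γ ^ 2 + δ ^ 2 = 0 := by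
  obtain ⟨l, hl, h3, ⟨e, he⟩, hr⟩ := exists_good_prime p hp h30
  haveI : Fact l.Prime := ⟨hl⟩
  obtain ⟨Y, Z, hYZ⟩ := gauss_id l h3
  obtain ⟨a, b, hab⟩ := sos v hv l hl.pos hr
  have h1 := congrArg (aeval m) hYZ
  simp only [map_mul, map_sub, map_add, map_pow, aeval_X, map_one, map_natCast, map_ofNat] at h1
  have h2 : m * m ^ l = 1 := by rw [← pow_succ', he, pow_mul, hm, one_pow]
  have hodd : p % 2 = 1 := by
    rcases hp.eq_two_or_odd with h | h
    · rw [h] at h30; norm_num at h30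
    · exact h
  have h4 : (m ^ ((p + 1) / 2)) ^ 2 = m := by
    rw [← pow_mul, show (p + 1) / 2 * 2 = p + 1 by omega, pow_succ, hm, one_mul]
  set t := m ^ ((p + 1) / 2)
  have h5 : m * ((aeval m Y) ^ 2 + l * (aeval m Z) ^ 2) + 4 = 0 := by
    apply hc
    linear_combination m * h1 + 4 * h2
  have hq : algebraMap ℚ K 2⁻¹ * 2 = 1 := by
    rw [← map_ofNat (algebraMap ℚ K) 2, ← map_mul]; norm_num
  set q := algebraMap ℚ K 2⁻¹
  refine ⟨q * t * aeval m Y, q * t * a * aeval m Z, q * t * b * aeval m Z, ?_⟩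
  rw [hab] at h5
  linear_combination q ^ 2 * h5 - (q * 2 + 1) * hq
    + q ^ 2 * ((aeval m Y) ^ 2 + (a ^ 2 + b ^ 2) * (aeval m Z) ^ 2) * h4

/-- No solution of `1 + β² + γ² + δ² = 0` centralizing a quaternion pair in a domain. -/
theorem quat {A : Type*} [Ring A] [NoZeroDivisors A] (i j β γ δ : A) (hi : i * i = -1) (hj : j * j = -1)
    (hij : j * i = -(i * j)) (h2 : (2 : A) ≠ 0) (bi : Commute i β) (bj : Commute j β) (ci : Commute i γ)
    (cj : Commute j γ) (di : Commute i δ) (dj : Commute j δ) (bc : Commute γ β) (bd : Commute δ β)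
    (cd : Commute δ γ) (h : 1 + β ^ 2 + γ ^ 2 + δ ^ 2 = 0) : False := by
  have aux : ∀ x y : A, Commute x y → ∀ z : A, x * (y * z) = y * (x * z) := fun x y hxy z => by
    rw [← mul_assoc, hxy.eq, mul_assoc]
  have hi' : ∀ z : A, i * (i * z) = -z := fun z => by rw [← mul_assoc, hi, neg_one_mul]
  have hj' : ∀ z : A, j * (j * z) = -z := fun z => by rw [← mul_assoc, hj, neg_one_mul]
  have hij' : ∀ z : A, j * (i * z) = -(i * (j * z)) := fun z => by
    rw [← mul_assoc, hij, neg_mul, mul_assoc]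
  set x := β * i + γ * j + δ * (i * j) with hx
  have hxx : x * x = -(β ^ 2 + γ ^ 2 + δ ^ 2) := by
    simp only [hx, mul_add, add_mul, mul_assoc, aux _ _ bi, aux _ _ bj, aux _ _ ci, aux _ _ cj,
      aux _ _ di, aux _ _ dj, aux _ _ bc, aux _ _ bd, aux _ _ cd, hi, hj, hij, hi', hj', hij', mul_neg,
      neg_neg, mul_one, pow_two, bi.eq, bj.eq, ci.eq, cj.eq, di.eq, dj.eq, bc.eq, bd.eq, cd.eq]
    abel
  have h1 : x * x = 1 := by rw [hxx]; rw [neg_eq_iff_add_eq_zero, ← h]; abel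
  have htr : x + (-(i * (x * i))) + (-(j * (x * j))) + (i * (j * (x * (j * i)))) = 0 := by
    simp only [hx, mul_add, add_mul, mul_assoc, aux _ _ bi, aux _ _ bj, aux _ _ ci, aux _ _ cj,
      aux _ _ di, aux _ _ dj, hi, hj, hij, hi', hj', hij', mul_neg, neg_neg, mul_one,
      bi.eq, bj.eq, ci.eq, cj.eq, di.eq, dj.eq]
    abel
  have h4 : (2 : A) * 2 ≠ 0 := mul_ne_zero h2 h2
  rcases mul_self_eq_one_iff.mp h1 with h | h
  · rw [h] at htr
    simp only [one_mul, hi, hj, hij, hi', hj', hij', mul_neg, neg_neg, mul_one] at htr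
    apply h4; rw [← htr]; norm_num
  · rw [h] at htr
    simp only [neg_mul, one_mul, hi, hj, hij, hi', hj', hij', mul_neg, neg_neg, mul_one] at htr
    apply h4; rw [← neg_eq_zero, ← htr]; norm_num

theorem charZero_of_quat {D : Type*} [DivisionRing D] (i j : D) (hi : i * i = -1) (hj : j * j = -1)
    (hij : j * i = -(i * j)) (h2 : (2 : D) ≠ 0) : CharZero D := by
  obtain ⟨q, hq⟩ := CharP.exists D
  rcases Nat.eq_zero_or_pos q with h | h
  · subst h; exact CharP.charP_to_charZero D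
  · exfalso
    haveI : NeZero q := ⟨h.ne'⟩
    obtain ⟨a, b, hab⟩ := CharP.sq_add_sq D q (-1)
    refine quat i j a b 0 hi hj hij h2 (Nat.commute_cast _ _) (Nat.commute_cast _ _)
      (Nat.commute_cast _ _) (Nat.commute_cast _ _) (Commute.zero_right _) (Commute.zero_right _)
      (Nat.commute_cast _ _) (Commute.zero_left _) (Commute.zero_left _) ?_
    rw [add_assoc 1, hab]; simp

theorem no_prime_aux {D : Type*} [DivisionRing D] {K : Type*} [CommRing K] [Algebra ℚ K] (f : K →+* D)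
    (hf : Function.Injective f) (i j : D) (s m : K) (hi : i * i = -1) (hj : j * j = -1)
    (hij : j * i = -(i * j)) (h2 : (2 : D) ≠ 0) (hs : f s * f s = f s + 1)
    (hci : ∀ k, Commute i (f k)) (hcj : ∀ k, Commute j (f k)) (p : ℕ) (hp : p.Prime) (h30 : p.Coprime 30)
    (hm : f m ^ p = 1) (hm1 : f m ≠ 1) : False := by
  have hs' : s * s = s + 1 := hf (by rw [map_mul, map_add, map_one, hs])
  obtain ⟨β, γ, δ, h⟩ := level (2 * s - 1) m (by linear_combination 4 * hs') p hp h30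
    (hf (by rw [map_pow, hm, map_one])) (fun y hy => by
      have := congrArg f hy
      rw [map_mul, map_sub, map_one, map_zero] at this
      exact hf (by rw [map_zero]; exact (mul_eq_zero.mp this).resolve_left (sub_ne_zero.mpr hm1)))
  refine quat i j (f β) (f γ) (f δ) hi hj hij h2 (hci _) (hcj _) (hci _)
    (hcj _) (hci _) (hcj _) ((Commute.all γ β).map f) ((Commute.all δ β).map f)
    ((Commute.all δ γ).map f) ?_
  have := congrArg f h
  simpa using this

theorem no_prime {D : Type*} [DivisionRing D] (i j s m : D) (hi : i * i = -1) (hj : j * j = -1)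
    (hij : j * i = -(i * j)) (h2 : (2 : D) ≠ 0) (hs : s * s = s + 1) (si : Commute s i) (sj : Commute s j)
    (mi : Commute m i) (mj : Commute m j) (ms : Commute m s) (p : ℕ) (hp : p.Prime) (h30 : p.Coprime 30)
    (hm : m ^ p = 1) (hm1 : m ≠ 1) : False := by
  haveI := charZero_of_quat i j hi hj hij h2
  let A := Subalgebra.centralizer ℚ ({m, s} : Set D)
  have hA : ∀ y : D, y ∈ A ↔ Commute m y ∧ Commute s y := fun y => by
    simp [A, Subalgebra.mem_centralizer_iff, commute_iff_eq]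
  let K := Subalgebra.center ℚ A
  let f : K →+* D := (A.val.comp K.val).toRingHom
  have hf : Function.Injective f := fun x y h => Subtype.ext (Subtype.ext h)
  have hc : ∀ (k : K) (y : D), Commute m y → Commute s y → Commute y (f k) := fun k y h1 h2 =>
    congrArg Subtype.val (Subalgebra.mem_center_iff.mp k.2 ⟨y, (hA y).mpr ⟨h1, h2⟩⟩)
  let m' : K := ⟨⟨m, (hA m).mpr ⟨Commute.refl m, ms.symm⟩⟩, Subalgebra.mem_center_iff.mpr fun y =>
    Subtype.ext ((hA y).mp y.2).1.symm⟩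
  let s' : K := ⟨⟨s, (hA s).mpr ⟨ms, Commute.refl s⟩⟩, Subalgebra.mem_center_iff.mpr fun y =>
    Subtype.ext ((hA y).mp y.2).2.symm⟩
  exact no_prime_aux (K := K) f hf i j s' m' hi hj hij h2 hs (fun k => hc k i mi si)
    (fun k => hc k j mj sj) p hp h30 hm hm1

end Cfsg.Agent.H2Div
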