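import Mathlib

set_option autoImplicit false
open Matrix

namespace Cfsg.Agent.H2Div

abbrev G5 := Matrix.SpecialLinearGroup (Fin 2) (ZMod 5)
def ga : G5 := ⟨!![2,0;0,3], by decide⟩
def gb : G5 := ⟨!![0,1;4,1], by decide⟩
def gj : G5 := ⟨!![0,1;4,0], by decide⟩
def gz : G5 := ⟨!![4,0;0,4], by decide⟩
def gc : G5 := ⟨!![0,2;2,1], by decide⟩
def gx : G5 := ga * gb
theorem f0 : gb*ga*gb*gb*ga*gb*ga*gb*gb*ga*gb = gj := by decide +kernel
theorem f1 : ∀ y : G5, y * y = gz → ∃ l : G5, l * y = ga * l := by decide +kernel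
theorem f2 : ∀ y : G5, y * ga = ga * y → y = 1 ∨ y = gz ∨ y = ga ∨ y = gz * ga := by decide +kernel
theorem f3 : ∀ y : G5, y * ga = gz * ga * y → y = gj ∨ y = gz * gj ∨ y = ga * gj ∨ y = gz * ga * gj := by
  decide +kernel
theorem f4 : ∀ y : G5, y*ga*y*y*ga*y*ga*y*y*ga*y = ga * gj → y * y * y = gz →
    (ga * y) * (ga * y) * (ga * y) * (ga * y) * (ga * y) = gz → y = gc := by decide +kernel
theorem f5 : gz * gz = 1 ∧ gz ≠ 1 ∧ ga * ga = gz ∧ gj * gj = gz ∧ gj * ga = gz * (ga * gj) ∧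
    gb * gb * gb = gz ∧ gb ≠ gz ∧ gx * gx * gx * gx * gx = gz ∧ gx ≠ gz := by decide +kernel
theorem f6 : (ga * gc) * (ga * gb * ga) = (ga * gb * ga) * (gx * gx * gx) ∧
    (gz * ((ga * gc) * (ga * gc) * (ga * gc) * (ga * gc))) * (ga * gb * ga)
      = (ga * gb * ga) * (gz * (gx * gx)) := by decide +kernel

end Cfsg.Agent.H2Div
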