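import Cfsg.Agent.H2.DivB
import Cfsg.Agent.H2.DivC

set_option autoImplicit false

namespace Cfsg.Agent.H2Div

variable {D : Type*} [DivisionRing D] (φ : G5 →* D) (hφ : Function.Injective φ)

theorem ne0 (u : G5) : φ u ≠ 0 := ((Group.isUnit u).map φ).ne_zero

include hφ

theorem hz : φ gz = -1 := by
  have h : φ gz * φ gz = 1 := by rw [← map_mul, f5.1, map_one]
  refine (mul_self_eq_one_iff.mp h).resolve_left fun h1 => f5.2.1 (hφ (by rw [h1, map_one]))

theorem two_ne : (2 : D) ≠ 0 := fun h => f5.2.1 (hφ (by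
  rw [hz φ hφ, map_one, neg_eq_iff_add_eq_zero, one_add_one_eq_two, h]))

theorem ha : φ ga * φ ga = -1 := by rw [← map_mul, f5.2.2.1, hz φ hφ]
theorem hj : φ gj * φ gj = -1 := by rw [← map_mul, f5.2.2.2.1, hz φ hφ]
theorem hja : φ gj * φ ga = -(φ ga * φ gj) := by
  rw [← map_mul, f5.2.2.2.2.1, map_mul, map_mul, hz φ hφ, neg_one_mul]

theorem hb : φ gb * φ gb = φ gb - 1 := by
  have h : φ gb * φ gb * φ gb = -1 := by rw [← map_mul, ← map_mul, f5.2.2.2.2.2.1, hz φ hφ]
  have h1 : φ gb + 1 ≠ 0 := fun h1 => f5.2.2.2.2.2.2.1 (hφ (by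
    rw [hz φ hφ]; exact eq_neg_of_add_eq_zero_left h1))
  have h2 : (φ gb + 1) * (φ gb * φ gb - φ gb + 1) = φ gb * φ gb * φ gb + 1 := by noncomm_ring
  rw [h, neg_add_cancel] at h2
  have h3 := (mul_eq_zero.mp h2).resolve_left h1
  rw [← sub_eq_zero, ← h3]; abel

theorem hx5 : φ gx * φ gx * φ gx * φ gx * φ gx = -1 := by
  rw [← map_mul, ← map_mul, ← map_mul, ← map_mul, f5.2.2.2.2.2.2.2.1, hz φ hφ]

theorem hP : φ gx * φ gx * φ gx * φ gx - φ gx * φ gx * φ gx + φ gx * φ gx - φ gx + 1 = 0 := by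
  have h1 : φ gx + 1 ≠ 0 := fun h1 => f5.2.2.2.2.2.2.2.2 (hφ (by
    rw [hz φ hφ]; exact eq_neg_of_add_eq_zero_left h1))
  have h2 : (φ gx + 1) * (φ gx * φ gx * φ gx * φ gx - φ gx * φ gx * φ gx + φ gx * φ gx - φ gx + 1)
      = φ gx * φ gx * φ gx * φ gx * φ gx + 1 := by noncomm_ring
  rw [hx5 φ hφ, neg_add_cancel] at h2
  exact (mul_eq_zero.mp h2).resolve_left h1

omit hφ in
/-- the golden ratio element -/
def gold : D := φ gx - φ gx * φ gx * φ gx * φ gx

theorem gold_sq : gold φ * gold φ = gold φ + 1 := by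
  have h : gold φ * gold φ - (gold φ + 1) =
      (φ gx * φ gx * φ gx * φ gx - φ gx * φ gx * φ gx + φ gx * φ gx - φ gx + 1) *
        ((φ gx + 1) * (φ gx * φ gx * φ gx - 2) + 1) := by
    unfold gold; noncomm_ring
  rw [hP φ hφ, zero_mul] at h
  exact sub_eq_zero.mp h

theorem gold_eq : gold φ = φ ga * φ gb + φ gb * φ ga - φ ga := by
  have hx : φ gx = φ ga * φ gb := map_mul φ ga gb
  have h1 : φ gx * (φ gb * φ ga - φ ga) = 1 := by
    have : φ ga * φ gb * (φ gb * φ ga - φ ga) = φ ga * (φ gb * φ gb - φ gb) * φ ga := by noncomm_ring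
    rw [hx, this, hb φ hφ, sub_sub_cancel_left, mul_neg, mul_one, neg_mul, ha φ hφ, neg_neg]
  have h2 : φ gx * (-(φ gx * φ gx * φ gx * φ gx)) = 1 := by
    have := hx5 φ hφ
    rw [mul_neg, neg_eq_iff_eq_neg, ← this]; noncomm_ring
  have h3 := mul_left_cancel₀ (ne0 φ gx) (h1.trans h2.symm)
  unfold gold
  rw [sub_eq_add_neg, ← h3, hx]; abel

theorem gold_a : Commute (gold φ) (φ ga) := by
  rw [gold_eq φ hφ, commute_iff_eq]
  have h := ha φ hφ
  have h' : ∀ z : D, φ ga * (φ ga * z) = -z := fun z => by rw [← mul_assoc, h, neg_one_mul]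
  simp only [mul_add, add_mul, mul_sub, sub_mul, mul_assoc, h, h', mul_neg, mul_one]
  abel

theorem gold_b : Commute (gold φ) (φ gb) := by
  rw [gold_eq φ hφ, commute_iff_eq]
  have h := hb φ hφ
  have h' : ∀ z : D, φ gb * (φ gb * z) = φ gb * z - z := fun z => by rw [← mul_assoc, h, sub_mul, one_mul]
  simp only [mul_add, add_mul, mul_sub, sub_mul, mul_assoc, h, h', mul_one]
  abel

theorem gold_j : Commute (gold φ) (φ gj) := by
  have a := gold_a φ hφ
  have b := gold_b φ hφ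
  rw [← f0]
  simp only [map_mul]
  exact (((((((((b.mul_right a).mul_right b).mul_right b).mul_right a).mul_right b).mul_right a).mul_right
    b).mul_right b).mul_right a).mul_right b

theorem no_prime' (m : D) (hm : ∀ u, Commute m (φ u)) (p : ℕ) (hp : p.Prime) (h30 : p.Coprime 30)
    (hmp : m ^ p = 1) (hm1 : m ≠ 1) : False :=
  no_prime (φ ga) (φ gj) (gold φ) m (ha φ hφ) (hj φ hφ) (hja φ hφ) (two_ne φ hφ) (gold_sq φ hφ)
    (gold_a φ hφ) (gold_j φ hφ) (hm _) (hm _)
    ((hm gx).sub_right ((((hm gx).mul_right (hm gx)).mul_right (hm gx)).mul_right (hm gx))) p hp h30 hmp hm1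

omit hφ in
theorem R_mul {g : D} {u u' v v' : G5} (h1 : g * φ u = φ u' * g) (h2 : g * φ v = φ v' * g) :
    g * φ (u * v) = φ (u' * v') * g := by
  rw [map_mul, map_mul, ← mul_assoc, h1, mul_assoc, h2, mul_assoc]

theorem R_uniq {g : D} (g0 : g ≠ 0) {u u' u'' : G5} (h1 : g * φ u = φ u' * g) (h2 : g * φ u = φ u'' * g) :
    u' = u'' := hφ (mul_right_cancel₀ g0 (h1.symm.trans h2))

theorem no_outer3 (g : D) (g0 : g ≠ 0) (hn : ∀ u, ∃ u', g * φ u = φ u' * g) (hnot : ∀ u, g ≠ φ u)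
    (hga : g * φ ga = φ ga * g) (hgg : g * g = φ ga) : False := by
  have ea := ha φ hφ
  have ej := hj φ hφ
  have eja := hja φ hφ
  have ez := hz φ hφ
  have h2 := two_ne φ hφ
  have hgz : g * φ gz = φ gz * g := by rw [ez]; simp
  obtain ⟨j', hj'⟩ := hn gj
  have hj2 : j' * ga = gz * ga * j' := by
    refine R_uniq φ hφ g0 (R_mul φ hj' hga) ?_
    rw [f5.2.2.2.2.1, mul_assoc]
    exact R_mul φ hgz (R_mul φ hga hj')
  have hcomm : g * g * φ gj ≠ φ gj * (g * g) := by
    rw [hgg, eja]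
    intro h
    have : 2 * (φ ga * φ gj) = 0 := by rw [two_mul]; exact add_eq_zero_iff_eq_neg.mpr h
    exact (mul_ne_zero h2 (mul_ne_zero (ne0 φ _) (ne0 φ _))) this
  have hgj : g * φ gj = φ (ga * gj) * g := by
    rcases f3 j' hj2 with h | h | h | h
    · exfalso; apply hcomm; rw [h] at hj'
      rw [mul_assoc, hj', ← mul_assoc, hj', mul_assoc]
    · exfalso; apply hcomm; rw [h, map_mul, ez, neg_one_mul, neg_mul] at hj'
      rw [mul_assoc, hj', mul_neg, ← mul_assoc, hj', neg_mul, neg_neg, mul_assoc]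
    · rw [← h]; exact hj'
    · exfalso
      rw [h, map_mul, map_mul, ez, ← hgg] at hj'
      have e1 : φ gj = -(g * φ gj * g) := mul_left_cancel₀ g0 (hj'.trans (by noncomm_ring))
      have e2 : (g * φ gj) * (g * φ gj) = 1 := by
        have : (g * φ gj) * (g * φ gj) = -(-(g * φ gj * g) * φ gj) := by noncomm_ring
        rw [this, ← e1, ej, neg_neg]
      rcases mul_self_eq_one_iff.mp e2 with e | e
      · apply hnot (gz * gj)
        apply mul_right_cancel₀ (ne0 φ gj)
        rw [e, map_mul, ez, mul_assoc, ej]; simp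
      · apply hnot gj
        apply mul_right_cancel₀ (ne0 φ gj)
        rw [e, ej]
  obtain ⟨b', hb'⟩ := hn gb
  have hbc : b' = gc := by
    have r1 := R_mul φ (R_mul φ (R_mul φ (R_mul φ (R_mul φ (R_mul φ (R_mul φ (R_mul φ (R_mul φ (R_mul φ
      hb' hga) hb') hb') hga) hb') hga) hb') hb') hga) hb'
    rw [f0] at r1
    have r2 := R_mul φ (R_mul φ hb' hb') hb'
    rw [f5.2.2.2.2.2.1] at r2
    have r0 := R_mul φ hga hb'
    have r3 := R_mul φ (R_mul φ (R_mul φ (R_mul φ r0 r0) r0) r0) r0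
    rw [show ga * gb = gx from rfl, f5.2.2.2.2.2.2.2.1] at r3
    exact f4 b' (R_uniq φ hφ g0 r1 hgj) (R_uniq φ hφ g0 r2 hgz) (R_uniq φ hφ g0 r3 hgz)
  subst hbc
  have r0 : g * φ gx = φ (ga * gc) * g := R_mul φ hga hb'
  have r4 := R_mul φ hgz (R_mul φ (R_mul φ (R_mul φ r0 r0) r0) r0)
  have sa := gold_a φ hφ
  have sb := gold_b φ hφ
  have sj := gold_j φ hφ
  have ss := gold_sq φ hφ
  have hl : Commute (gold φ) (φ (ga * gb * ga)) := by
    rw [map_mul, map_mul]; exact (sa.mul_right sb).mul_right sa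
  have hs' : φ (ga * gc) + φ (gz * ((ga * gc) * (ga * gc) * (ga * gc) * (ga * gc))) = 1 - gold φ := by
    apply mul_right_cancel₀ (ne0 φ (ga * gb * ga))
    rw [add_mul, ← map_mul, ← map_mul, f6.1, f6.2, sub_mul, hl.eq, one_mul, map_mul φ (ga * gb * ga),
      map_mul φ (ga * gb * ga), ← mul_add, ← mul_one_sub]
    congr 1
    simp only [map_mul, ez]
    rw [← sub_eq_zero, ← neg_eq_zero, ← hP φ hφ]
    unfold gold; noncomm_ring
  have hgs : g * gold φ = (1 - gold φ) * g := by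
    rw [← hs', add_mul, ← r0, ← r4]
    simp only [map_mul, ez]
    unfold gold; noncomm_ring
  rw [map_mul] at hgj
  generalize gold φ = s at *
  generalize φ ga = a at *
  generalize φ gj = j at *
  have ea' : ∀ z : D, a * (a * z) = -z := fun z => by rw [← mul_assoc, ea, neg_one_mul]
  have eja' : ∀ z : D, j * (a * z) = -(a * (j * z)) := fun z => by rw [← mul_assoc, eja, neg_mul, mul_assoc]
  have hga' : ∀ z : D, g * (a * z) = a * (g * z) := fun z => by rw [← mul_assoc, hga, mul_assoc]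
  have ua : Commute a (g - a * g) := by
    rw [commute_iff_eq]
    simp only [mul_sub, sub_mul, mul_assoc, hga]
  have uj : Commute j (g - a * g) := by
    rw [commute_iff_eq]
    simp only [mul_sub, sub_mul, mul_assoc, hgj, ea', eja']
    abel
  have uu : (g - a * g) * (g - a * g) = 2 := by
    simp only [mul_sub, sub_mul, mul_assoc, hga', hgg, ea, ea', mul_neg, mul_one]
    rw [← one_add_one_eq_two]; abel
  have gv : g * (2 * s - 1) = -((2 * s - 1) * g) := by
    have : g * (2 * s - 1) = 2 * (g * s) - g := by noncomm_ring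
    rw [this, hgs]; noncomm_ring
  have va : Commute a (2 * s - 1) :=
    ((Commute.ofNat_right a 2).mul_right sa.symm).sub_right (Commute.one_right a)
  have vj : Commute j (2 * s - 1) :=
    ((Commute.ofNat_right j 2).mul_right sj.symm).sub_right (Commute.one_right j)
  have vv : (2 * s - 1) * (2 * s - 1) = 5 := by
    have : (2 * s - 1) * (2 * s - 1) = 4 * (s * s) - 4 * s + 1 := by noncomm_ring
    rw [this, ss, mul_add, mul_one, add_sub_cancel_left]; norm_num
  generalize 2 * s - 1 = v at *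
  have uv : v * (g - a * g) = -((g - a * g) * v) := by
    rw [sub_mul, mul_assoc, gv, mul_neg, ← mul_assoc a, va.eq]; noncomm_ring
  generalize g - a * g = u at *
  refine quat a j 3 (u * v) 0 ea ej eja h2 (Commute.ofNat_right a 3) (Commute.ofNat_right j 3)
    (ua.mul_right va) (uj.mul_right vj) (Commute.zero_right _) (Commute.zero_right _)
    (Commute.ofNat_right _ 3) (Commute.zero_left _) (Commute.zero_left _) ?_
  have : (u * v) ^ 2 = -((u * u) * (v * v)) := by
    rw [pow_two, mul_assoc u v, ← mul_assoc v u, uv]; noncomm_ring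
  rw [this, uu, vv]; norm_num

theorem no_outer (g : D) (g0 : g ≠ 0) (hn : ∀ u, ∃ u', g * φ u = φ u' * g) (hnot : ∀ u, g ≠ φ u)
    (hsq : ∃ w, g * g = φ w) : False := by
  have ea := ha φ hφ
  have ez := hz φ hφ
  have key : ∀ (g : D) (l : G5), g ≠ 0 → (∀ u, ∃ u', g * φ u = φ u' * g) → (∀ u, g ≠ φ u) →
      φ l * g ≠ 0 ∧ (∀ u, ∃ u', φ l * g * φ u = φ u' * (φ l * g)) ∧ (∀ u, φ l * g ≠ φ u) := by
    intro g l g0 hn hnot
    refine ⟨mul_ne_zero (ne0 φ l) g0, fun u => ?_, fun u h => hnot (l⁻¹ * u) ?_⟩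
    · obtain ⟨u', h⟩ := hn u
      refine ⟨l * u' * l⁻¹, ?_⟩
      rw [mul_assoc, h, ← mul_assoc, ← mul_assoc, ← map_mul, ← map_mul, inv_mul_cancel_right]
    · rw [map_mul, ← h, ← mul_assoc, ← map_mul, inv_mul_cancel, map_one, one_mul]
  have hgz : g * φ gz = φ gz * g := by rw [ez]; simp
  obtain ⟨a', ha'⟩ := hn ga
  have r := R_mul φ ha' ha'
  rw [f5.2.2.1] at r
  obtain ⟨l, hl⟩ := f1 a' (R_uniq φ hφ g0 r hgz)
  obtain ⟨k0, kn, knot⟩ := key g l g0 hn hnot
  have ksq : ∃ w, φ l * g * (φ l * g) = φ w := by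
    obtain ⟨w, hw⟩ := hsq
    obtain ⟨l', hl'⟩ := hn l
    exact ⟨l * l' * w, by rw [map_mul, map_mul, ← hw, mul_assoc, ← mul_assoc g, hl']; simp only [mul_assoc]⟩
  have ka : φ l * g * φ ga = φ ga * (φ l * g) := by
    rw [mul_assoc, ha', ← mul_assoc, ← map_mul, hl, map_mul, mul_assoc]
  generalize φ l * g = k at *
  obtain ⟨w, hw⟩ := ksq
  have hw2 : w * ga = ga * w := hφ (by
    rw [map_mul, map_mul, ← hw, mul_assoc, ka, ← mul_assoc, ka, mul_assoc])
  rcases f2 w hw2 with h | h | h | h <;> rw [h] at hw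
  · rw [map_one] at hw
    rcases mul_self_eq_one_iff.mp hw with e | e
    · exact knot 1 (by rw [e, map_one])
    · exact knot gz (by rw [e, ez])
  · have : (k - φ ga) * (k + φ ga) = 0 := by
      rw [sub_mul, mul_add, mul_add, hw, ka, ea, ez]; abel
    rcases mul_eq_zero.mp this with e | e
    · exact knot ga (sub_eq_zero.mp e)
    · exact knot (gz * ga) (by rw [map_mul, ez, neg_one_mul]; exact eq_neg_of_add_eq_zero_left e)
  · exact no_outer3 φ hφ k k0 kn knot ka hw
  · obtain ⟨k0', kn', knot'⟩ := key k ga k0 kn knot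
    refine no_outer3 φ hφ (φ ga * k) k0' kn' knot' (by rw [mul_assoc, ka]) ?_
    rw [mul_assoc, ← mul_assoc k, ka, mul_assoc, hw, ← mul_assoc, ea, map_mul, ez]; simp

end Cfsg.Agent.H2Div
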