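/-
Half-transitive linear 2-groups, part 1: eigenspaces of involutions and the dihedral count.
-/
import Cfsg.Agent.BS.P1a
import Cfsg.Agent.S3784

set_option autoImplicit false
set_option linter.style.haveILetI false

namespace Cfsg.Agent.H2.Half

open MulAction Subgroup

variable {G V : Type*} [Group G] [AddCommGroup V] [DistribMulAction G V]

/-- The vectors fixed by `t`. -/
def fx (t : G) : AddSubgroup V where
  carrier := {v | t • v = v}
  add_mem' := fun {a b} ha hb => by
    change t • (a + b) = a + b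
    rw [smul_add, show t • a = a from ha, show t • b = b from hb]
  zero_mem' := smul_zero t
  neg_mem' := fun {a} ha => by
    change t • (-a) = -a
    rw [smul_neg, show t • a = a from ha]

/-- The vectors negated by `t`. -/
def ng (t : G) : AddSubgroup V where
  carrier := {v | t • v = -v}
  add_mem' := fun {a b} ha hb => by
    change t • (a + b) = -(a + b)
    rw [smul_add, show t • a = -a from ha, show t • b = -b from hb]; abel
  zero_mem' := by change t • (0 : V) = -0; simp
  neg_mem' := fun {a} ha => by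
    change t • (-a) = - -a
    rw [smul_neg, show t • a = -a from ha]

theorem mem_fx {t : G} {v : V} : v ∈ (fx t : AddSubgroup V) ↔ t • v = v := Iff.rfl
theorem mem_ng {t : G} {v : V} : v ∈ (ng t : AddSubgroup V) ↔ t • v = -v := Iff.rfl

theorem eq_zero_of_fx_ng (hinj : ∀ e : V, 2 • e = 0 → e = 0) {t : G} {v : V} (h1 : t • v = v)
    (h2 : t • v = -v) : v = 0 :=
  hinj v (by rw [two_nsmul]; nth_rewrite 1 [← h1]; rw [h2]; abel)

theorem card_split [Finite V] (hinj : ∀ e : V, 2 • e = 0 → e = 0) {t : G} (ht : t * t = 1) :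
    Nat.card V = Nat.card (fx t : AddSubgroup V) * Nat.card (ng t : AddSubgroup V) := by
  rw [← Nat.card_prod]
  refine (Nat.card_congr (Equiv.ofBijective
    (fun x : ↥(fx t : AddSubgroup V) × ↥(ng t : AddSubgroup V) => (x.1 : V) + x.2) ⟨?_, ?_⟩)).symm
  · rintro ⟨a, b⟩ ⟨a', b'⟩ h
    have h' : (a : V) + b = a' + b' := h
    have h1 : (a : V) - a' = b' - b := by linear_combination (norm := abel) h'
    have h2 : (a : V) - a' = 0 :=
      eq_zero_of_fx_ng hinj (t := t) (sub_mem a.2 a'.2) (by rw [h1]; exact sub_mem b'.2 b.2)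
    have h3 : (b' : V) - b = 0 := h1 ▸ h2
    exact Prod.ext (Subtype.ext (sub_eq_zero.1 h2)) (Subtype.ext (sub_eq_zero.1 h3).symm)
  · intro v
    have hs : Function.Surjective (fun e : V => 2 • e) := by
      refine Finite.injective_iff_surjective.1 fun a b hab => ?_
      have hab' : 2 • a = 2 • b := hab
      exact sub_eq_zero.1 (hinj _ (by rw [nsmul_sub, hab', sub_self]))
    obtain ⟨u, hu⟩ := hs v
    have hu' : 2 • u = v := hu
    refine ⟨(⟨u + t • u, ?_⟩, ⟨u - t • u, ?_⟩), ?_⟩
    · rw [mem_fx, smul_add, ← mul_smul, ht, one_smul, add_comm]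
    · rw [mem_ng, smul_sub, ← mul_smul, ht, one_smul, neg_sub]
    · change u + t • u + (u - t • u) = v
      rw [← hu', two_nsmul]; abel

theorem card_fx_eq_ng {t g : G} (h : ∀ v : V, t • g • v = -(g • t • v)) :
    Nat.card (fx t : AddSubgroup V) = Nat.card (ng t : AddSubgroup V) := by
  refine Nat.card_congr (Equiv.ofBijective
    (fun x : (fx t : AddSubgroup V) => (⟨g • (x : V), ?_⟩ : (ng t : AddSubgroup V))) ⟨?_, ?_⟩)
  · rw [mem_ng, h, show t • (x : V) = x from x.2]
  · intro a b hab
    exact Subtype.ext (smul_left_cancel g (congrArg Subtype.val hab))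
  · intro w
    refine ⟨⟨g⁻¹ • (w : V), ?_⟩, Subtype.ext (smul_inv_smul g _)⟩
    rw [mem_fx]
    apply smul_left_cancel g
    have h1 := h (g⁻¹ • (w : V))
    rw [smul_inv_smul, show t • (w : V) = -w from w.2] at h1
    rw [smul_inv_smul]
    exact (neg_inj.1 h1).symm

theorem card_eq_pow [Finite V] {q : ℕ} (hq : q.Prime) (hE : ∀ e : V, q • e = 0)
    (W : AddSubgroup V) : ∃ a, Nat.card W = q ^ a := by
  haveI := Fact.mk hq
  have : IsPGroup q (Multiplicative W) := fun g => ⟨1, by
    rw [pow_one]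
    change q • (Multiplicative.toAdd g) = 0
    exact Subtype.ext (hE _)⟩
  obtain ⟨a, ha⟩ := IsPGroup.iff_card.1 this
  exact ⟨a, ha⟩

/-- A central involution acts as `-1`. -/
theorem central_neg [Finite G] [FaithfulSMul G V] (hP : IsPGroup 2 G)
    (hinj : ∀ e : V, 2 • e = 0 → e = 0)
    (hconst : ∀ a b : V, a ≠ 0 → b ≠ 0 → Nat.card (stabilizer G a) = Nat.card (stabilizer G b))
    {z : G} (hz : ∀ g, g * z = z * g) (h1 : z ≠ 1) (h2 : z * z = 1) (v : V) : z • v = -v := by
  have := BS.center_fpf hP hinj hconst hz h1 (a := z • v + v)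
    (by rw [smul_add, ← mul_smul, h2, one_smul, add_comm])
  exact eq_neg_of_add_eq_zero_left this

/-- Counting: if every non-zero vector is fixed by exactly one element of `T` and each element of `T`
fixes `r` vectors then `|V| - 1 = |T| (r - 1)`. -/
theorem count_cover [Finite V] (T : Set G) (r : ℕ)
    (hT : ∀ t ∈ T, Nat.card (fx t : AddSubgroup V) = r)
    (hex : ∀ v : V, v ≠ 0 → ∃! t, t ∈ T ∧ t • v = v) (hTf : T.Finite) :
    Nat.card V - 1 = Nat.card T * (r - 1) := by
  classical
  haveI := Fintype.ofFinite V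
  haveI := hTf.fintype
  have h1 : Nat.card V - 1 = Nat.card {v : V // v ≠ 0} := by
    rw [Nat.card_eq_fintype_card, Nat.card_eq_fintype_card, Fintype.card_subtype_compl,
      Fintype.card_subtype_eq]
  have h2 : Nat.card {v : V // v ≠ 0} =
      Nat.card (Σ t : T, {v : (fx (t : G) : AddSubgroup V) // v ≠ 0}) := by
    refine (Nat.card_congr (Equiv.ofBijective (fun x => ⟨(x.2.1 : V), fun h => x.2.2
      (Subtype.ext h)⟩) ⟨?_, ?_⟩)).symm
    · rintro ⟨⟨t, ht⟩, ⟨v, hv⟩, hv0⟩ ⟨⟨t', ht'⟩, ⟨v', hv'⟩, hv0'⟩ h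
      have hvv : v = v' := congrArg Subtype.val h
      subst hvv
      have hne : v ≠ 0 := fun h => hv0 (Subtype.ext h)
      have htt : t = t' := (hex v hne).unique ⟨ht, hv⟩ ⟨ht', hv'⟩
      subst htt
      rfl
    · rintro ⟨v, hv⟩
      obtain ⟨t, ⟨ht, htv⟩, -⟩ := hex v hv
      exact ⟨⟨⟨t, ht⟩, ⟨v, htv⟩, fun h => hv (congrArg Subtype.val h)⟩, rfl⟩
  rw [h1, h2, Nat.card_sigma, Finset.sum_congr rfl (g := fun _ => r - 1), Finset.sum_const,
    smul_eq_mul, Finset.card_univ, Nat.card_eq_fintype_card]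
  rintro ⟨t, ht⟩ -
  rw [← hT t ht, Nat.card_eq_fintype_card, Nat.card_eq_fintype_card, Fintype.card_subtype_compl,
    Fintype.card_subtype_eq]

end Cfsg.Agent.H2.Half
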