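/-
Half-transitive linear 2-groups, part 2: dihedral and semidihedral groups.
-/
import Cfsg.Agent.H2.Half1

set_option autoImplicit false
set_option linter.style.haveILetI false

namespace Cfsg.Agent.H2.Half

open MulAction Subgroup

variable {G V : Type*} [Group G] [AddCommGroup V] [DistribMulAction G V]

theorem card_invol_out [Finite G] {x y : G} {n m : ℕ} (hmn : m ≤ n) (hx : orderOf x = 2 ^ n)
    (hy : y * y = 1) (hyC : y ∉ zpowers x) (hidx : (zpowers x).index = 2)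
    (hconj : ∀ c ∈ zpowers x, y * c * y⁻¹ = c ^ (2 ^ m - 1)) :
    Nat.card {t : G | t ∉ zpowers x ∧ t * t = 1} = 2 ^ m := by
  have hyi : y⁻¹ = y := inv_eq_of_mul_eq_one_right hy
  have hsq : ∀ c ∈ zpowers x, y * c * (y * c) = c ^ 2 ^ m := by
    intro c hc
    have h1 := hconj c hc
    rw [hyi] at h1
    have h2 : 2 ^ m = (2 ^ m - 1) + 1 := (Nat.sub_add_cancel Nat.one_le_two_pow).symm
    rw [h2, pow_succ, ← h1]; group
  set x' := x ^ 2 ^ (n - m) with hx'
  have hox : orderOf x' = 2 ^ m := by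
    rw [hx', orderOf_pow_of_dvd (by positivity) (by rw [hx]; exact pow_dvd_pow _ (by omega)), hx,
      Nat.pow_div (by omega) (by norm_num)]
    congr 1; omega
  have hle : zpowers x' ≤ zpowers x := zpowers_le.2 (pow_mem (mem_zpowers x) _)
  rw [← hox, ← Nat.card_zpowers]
  refine (Nat.card_congr (Equiv.ofBijective (fun c : zpowers x' =>
    (⟨y * c, ?_, ?_⟩ : {t : G | t ∉ zpowers x ∧ t * t = 1})) ⟨?_, ?_⟩)).symm
  · intro h
    exact hyC (by simpa using mul_mem h (inv_mem (hle c.2)))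
  · rw [hsq _ (hle c.2), ← hox]
    exact orderOf_dvd_iff_pow_eq_one.1 (orderOf_dvd_of_mem_zpowers c.2)
  · intro a b hab
    exact Subtype.ext (mul_left_cancel (congrArg Subtype.val hab))
  · rintro ⟨t, ht, ht2⟩
    have h1 : y * t ∈ zpowers x := (mul_mem_iff_of_index_two hidx).2 (by simp [ht, hyC])
    have h2 : y * (y * t) = t := by rw [← mul_assoc, hy, one_mul]
    have h3 := hsq _ h1
    rw [h2, ht2] at h3
    refine ⟨⟨y * t, ?_⟩, Subtype.ext h2⟩
    obtain ⟨k, hk⟩ := (mem_powers_iff_mem_zpowers).2 h1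
    have hk' : x ^ k = y * t := hk
    rw [← hk', ← pow_mul] at h3
    have h4 := orderOf_dvd_of_pow_eq_one h3.symm
    rw [hx, show 2 ^ n = 2 ^ (n - m) * 2 ^ m by rw [← pow_add]; congr 1; omega] at h4
    obtain ⟨l, hl⟩ := Nat.dvd_of_mul_dvd_mul_right (by positivity) h4
    rw [← hk', hl, pow_mul]
    exact pow_mem (mem_zpowers _) _

theorem dih_count [Finite G] [Finite V] [Nontrivial V] [FaithfulSMul G V] {q : ℕ} (hq : q.Prime)
    (hE : ∀ e : V, q • e = 0) (hP : IsPGroup 2 G) (hinj : ∀ e : V, 2 • e = 0 → e = 0)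
    (hconst : ∀ a b : V, a ≠ 0 → b ≠ 0 → Nat.card (stabilizer G a) = Nat.card (stabilizer G b))
    (hns : ∀ v : V, v ≠ 0 → ∃ g : G, g ≠ 1 ∧ g • v = v)
    {x y : G} {n m : ℕ} (hm : 2 ≤ m) (hmn : m ≤ n) (hx : orderOf x = 2 ^ n)
    (hG : Nat.card G = 2 ^ (n + 1)) (hy : y * y = 1) (hyx : y * x * y⁻¹ = x ^ (2 ^ m - 1)) :
    Nat.card V = q ^ 2 ∧ q = 2 ^ m - 1 := by
  have hidx : (zpowers x).index = 2 := by
    have h1 := (zpowers x).card_mul_index
    rw [Nat.card_zpowers, hx, hG, pow_succ] at h1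
    exact Nat.eq_of_mul_eq_mul_left (by positivity) h1
  have hconj : ∀ c ∈ zpowers x, y * c * y⁻¹ = c ^ (2 ^ m - 1) := by
    intro c hc
    obtain ⟨k, hk⟩ := (mem_powers_iff_mem_zpowers).2 hc
    have hk' : x ^ k = c := hk
    rw [← hk', ← conj_pow, hyx, ← pow_mul, ← pow_mul, mul_comm]
  obtain ⟨m', rfl⟩ : ∃ m', m = m' + 2 := ⟨m - 2, by omega⟩
  have h4 : 2 ^ (m' + 2) - 1 = 4 * (2 ^ m' - 1) + 3 := by
    have : 1 ≤ 2 ^ m' := Nat.one_le_two_pow
    rw [pow_add]; omega
  have hcomm : ∀ c ∈ zpowers x, ∀ d ∈ zpowers x, c * d = d * c := by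
    rintro _ ⟨i, rfl⟩ _ ⟨j, rfl⟩
    exact (Commute.zpow_zpow (Commute.refl x) i j).eq
  set u := x ^ 2 ^ (n - 2) with hu
  have hou : orderOf u = 4 := by
    rw [hu, orderOf_pow_of_dvd (by positivity) (by rw [hx]; exact pow_dvd_pow _ (by omega)), hx,
      Nat.pow_div (by omega) (by norm_num), show n - (n - 2) = 2 by omega]
  have huC : u ∈ zpowers x := pow_mem (mem_zpowers x) _
  have hu4 : u ^ 4 = 1 := by rw [← hou]; exact pow_orderOf_eq_one u
  have hu2 : u * u ≠ 1 := by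
    intro h
    have := orderOf_dvd_of_pow_eq_one (show u ^ 2 = 1 by rw [pow_two, h])
    rw [hou] at this; omega
  have hyu : y * u * y⁻¹ = u ^ 3 := by rw [hconj u huC, h4, pow_add, pow_mul, hu4, one_pow, one_mul]
  have hyC : y ∉ zpowers x := by
    intro h
    rw [hcomm y h u huC, mul_inv_cancel_right] at hyu
    apply hu2
    have : u * (u * u) = u * 1 := by rw [mul_one]; nth_rewrite 4 [hyu]; rw [pow_succ, pow_two, mul_assoc]
    exact mul_left_cancel this
  have hout : ∀ g, g ∉ zpowers x → ∃ c ∈ zpowers x, g = y * c := fun g hg =>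
    ⟨y * g, (mul_mem_iff_of_index_two hidx).2 (by simp [hg, hyC]), by rw [← mul_assoc, hy, one_mul]⟩
  have hcen : ∀ w ∈ zpowers x, w * w = 1 → ∀ g, g * w = w * g := by
    intro w hw hw2 g
    by_cases hg : g ∈ zpowers x
    · exact hcomm g hg w hw
    obtain ⟨c, hc, rfl⟩ := hout g hg
    have h1 : y * w * y⁻¹ = w := by
      rw [hconj w hw, h4, show 4 * (2 ^ m' - 1) + 3 = 2 * (2 * (2 ^ m' - 1) + 1) + 1 by ring, pow_succ,
        pow_mul, pow_two, hw2, one_pow, one_mul]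
    rw [mul_assoc, hcomm c hc w hw, ← mul_assoc, ← mul_assoc]
    congr 1
    exact mul_inv_eq_iff_eq_mul.1 h1
  have hfpf : ∀ c ∈ zpowers x, c ≠ 1 → ∀ v : V, c • v = v → v = 0 := by
    intro c hc h1 v hv
    obtain ⟨k, hk1, hk2⟩ := H1.exists_pow_notMem_pow_succ_mem hP (A := ⊥) (c := c) (by simpa using h1)
    rw [mem_bot] at hk1 hk2
    exact BS.center_fpf hP hinj hconst
      (hcen _ (pow_mem hc _) (by rw [← pow_two, ← pow_mul, ← pow_succ, hk2])) hk1
      (BS.pow_smul_of_fix hv _)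
  have hu4' : u * u * (u * u) = 1 := by rw [← hu4]; simp only [pow_succ, pow_zero, one_mul, mul_assoc]
  have hw : ∀ v : V, (u * u) • v = -v :=
    central_neg hP hinj hconst (hcen _ (mul_mem huC huC) hu4') hu2 hu4'
  have hsq : ∀ t, t ∉ zpowers x → t * t = 1 →
      Nat.card V = Nat.card (fx t : AddSubgroup V) * Nat.card (fx t : AddSubgroup V) := by
    intro t ht ht2
    rw [card_split hinj ht2]
    congr 1
    refine (card_fx_eq_ng (g := u) fun v => ?_).symm
    obtain ⟨c, hc, rfl⟩ := hout t ht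
    have h1 : y * c * u = u * (u * u) * (y * c) := by
      rw [mul_assoc, hcomm c hc u huC, ← mul_assoc, mul_inv_eq_iff_eq_mul.1 hyu]
      simp only [pow_succ, pow_zero, one_mul, mul_assoc]
    rw [← mul_smul, h1, mul_smul, mul_smul, hw, smul_neg]
  set r := Nat.card (fx y : AddSubgroup V) with hr
  have hVr : Nat.card V = r * r := hsq y hyC hy
  have hcov := count_cover (V := V) {t : G | t ∉ zpowers x ∧ t * t = 1} r
    (fun t ht => Nat.mul_self_inj.1 ((hsq t ht.1 ht.2).symm.trans hVr)) (fun v hv => by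
      obtain ⟨g, hg1, hgv⟩ := hns v hv
      have hgC : g ∉ zpowers x := fun h => hv (hfpf g h hg1 v hgv)
      have key : ∀ a b : G, a ∉ zpowers x → b ∉ zpowers x → a • v = v → b • v = v → a * b = 1 := by
        intro a b ha hb hav hbv
        by_contra h
        exact hv (hfpf _ ((mul_mem_iff_of_index_two hidx).2 (by simp [ha, hb])) h v
          (by rw [mul_smul, hbv, hav]))
      refine ⟨g, ⟨⟨hgC, key g g hgC hgC hgv hgv⟩, hgv⟩, ?_⟩
      rintro t ⟨⟨ht, -⟩, htv⟩
      exact mul_right_cancel ((key t g ht hgC htv hgv).trans (key g g hgC hgC hgv hgv).symm))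
    (Set.toFinite _)
  rw [card_invol_out hmn hx hy hyC hidx hconj, hVr] at hcov
  have hV1 : 1 < Nat.card V := Finite.one_lt_card
  have hr1 : 1 < r := by
    by_contra h
    have : r ≤ 1 := by omega
    rw [hVr] at hV1
    nlinarith
  have hr2 : 2 ^ (m' + 2) = r + 1 := by
    obtain ⟨s, hs⟩ : ∃ s, r = s + 1 := ⟨r - 1, by omega⟩
    rw [hs] at hcov hr1 ⊢
    have h1 : (s + 1) * (s + 1) - 1 = (s + 2) * s := by
      rw [show (s + 1) * (s + 1) = (s + 2) * s + 1 by ring]; omega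
    rw [h1, Nat.add_sub_cancel] at hcov
    exact (Nat.eq_of_mul_eq_mul_right (by omega) hcov).symm
  obtain ⟨a, ha⟩ := card_eq_pow hq hE (fx y : AddSubgroup V)
  rw [← hr] at ha
  have ha1 : 1 ≤ a := by
    rcases Nat.eq_zero_or_pos a with rfl | h
    · rw [pow_zero] at ha; omega
    · exact h
  rw [ha] at hr2
  rcases S3784.result 2 q (m' + 2) a Nat.prime_two hq (by omega) ha1 hr2 with
    ⟨-, h1, -, h2⟩ | ⟨-, h1, -⟩ | ⟨h1, -⟩
  · subst h1
    rw [pow_one] at ha
    exact ⟨by rw [hVr, ha, pow_two], by omega⟩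
  · omega
  · rw [pow_add] at h1; omega

end Cfsg.Agent.H2.Half
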