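/-
Half-transitive linear 2-groups, part 3: a normal four-group.
-/
import Cfsg.Agent.H2.Half2

set_option autoImplicit false
set_option linter.style.haveILetI false

namespace Cfsg.Agent.H2.Half

open MulAction Subgroup

variable {G V : Type*} [Group G] [AddCommGroup V] [DistribMulAction G V]

theorem swap_ex [Finite G] (hinj : ∀ e : V, 2 • e = 0 → e = 0)
    (hconst : ∀ a b : V, a ≠ 0 → b ≠ 0 → Nat.card (stabilizer G a) = Nat.card (stabilizer G b))
    {a : G} (ha : ∀ g : G, (∀ v : V, a • g • v = g • a • v) ∨ (∀ v : V, a • g • v = -(g • a • v)))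
    {v w : V} (h1 : a • v = v) (h2 : a • w = -w) (hv : v ≠ 0) (hw : w ≠ 0) :
    ∃ g : G, (∀ v : V, a • g • v = -(g • a • v)) ∧ g • v = w ∧ g • w = v := by
  have hvw : v + w ≠ 0 := by
    intro h
    have : w = -v := (neg_eq_of_add_eq_zero_right h).symm
    exact hv (eq_zero_of_fx_ng hinj h1 (by rw [this, smul_neg, neg_inj] at h2; exact h2))
  by_contra hcon
  have hle : stabilizer G (v + w) ≤ stabilizer G v := by
    intro g hg
    have hg' : g • v + g • w = v + w := by rw [← smul_add]; exact hg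
    rcases ha g with h | h
    · have h3 : g • v - v = w - g • w := by linear_combination (norm := abel) hg'
      have h4 : a • (g • v - v) = g • v - v := by rw [smul_sub, h, h1]
      have h5 : a • (g • v - v) = -(g • v - v) := by
        rw [h3, smul_sub, h, h2, smul_neg]; abel
      exact sub_eq_zero.1 (eq_zero_of_fx_ng hinj h4 h5)
    · exfalso
      have h3 : g • v - w = v - g • w := by linear_combination (norm := abel) hg'
      have h4 : a • (g • v - w) = g • v - w := by rw [h3, smul_sub, h, h1, h2, smul_neg, neg_neg]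
      have h5 : a • (g • v - w) = -(g • v - w) := by
        rw [smul_sub, h, h1, h2]; abel
      have h6 := eq_zero_of_fx_ng hinj h4 h5
      exact hcon ⟨g, h, sub_eq_zero.1 h6, (sub_eq_zero.1 (h3 ▸ h6)).symm⟩
  have heq := BS.stab_eq_of_le hconst hvw hv hle
  have h3 : a ∈ stabilizer G (v + w) := heq ▸ h1
  have h4 : a • (v + w) = v + w := h3
  rw [smul_add, h1, add_right_inj] at h4
  exact hw (eq_zero_of_fx_ng hinj h4 h2)

/-- The elements commuting with `a` on `V`. -/
def hc (V : Type*) [AddCommGroup V] [DistribMulAction G V] (a : G) : Subgroup G where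
  carrier := {g | ∀ v : V, a • g • v = g • a • v}
  mul_mem' := fun {x y} hx hy v => by rw [mul_smul, mul_smul, hx, hy]
  one_mem' := fun v => by rw [one_smul, one_smul]
  inv_mem' := fun {x} hx v => by
    apply smul_left_cancel x
    rw [← hx, smul_inv_smul, smul_inv_smul]

theorem klein_card [Finite G] [Finite V] (hP : IsPGroup 2 G)
    (hinj : ∀ e : V, 2 • e = 0 → e = 0)
    (hconst : ∀ a b : V, a ≠ 0 → b ≠ 0 → Nat.card (stabilizer G a) = Nat.card (stabilizer G b))
    {a : G} (ha : ∀ g : G, (∀ v : V, a • g • v = g • a • v) ∨ (∀ v : V, a • g • v = -(g • a • v)))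
    {v w : V} (h1 : a • v = v) (h2 : a • w = -w) (hv : v ≠ 0) (hw : w ≠ 0) :
    ∃ s, Nat.card (fx a : AddSubgroup V) = 2 ^ s + 1 := by
  have horb : orbit (hc V a) v = ((fx a : AddSubgroup V) : Set V) \ {0} := by
    ext u
    constructor
    · rintro ⟨⟨g, hg⟩, rfl⟩
      refine ⟨?_, fun h => hv ((smul_eq_zero_iff_eq g).1 h)⟩
      change a • g • v = g • v
      rw [hg, h1]
    · rintro ⟨hu, hu0⟩
      obtain ⟨g, hg, hg1, -⟩ := swap_ex hinj hconst ha h1 h2 hv hw
      obtain ⟨g', hg', -, hg2⟩ := swap_ex hinj hconst ha hu h2 hu0 hw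
      refine ⟨⟨g' * g, fun x => ?_⟩, ?_⟩
      · rw [mul_smul, mul_smul, hg', hg, smul_neg, neg_neg]
      · change (g' * g) • v = u
        rw [mul_smul, hg1, hg2]
  have h3 := index_stabilizer (hc V a) v
  obtain ⟨k, hk⟩ := IsPGroup.iff_card.1 (hP.to_subgroup (hc V a))
  have h4 := (stabilizer (hc V a) v).index_dvd_card
  rw [hk] at h4
  obtain ⟨s, -, hs⟩ := (Nat.dvd_prime_pow Nat.prime_two).1 h4
  refine ⟨s, ?_⟩
  rw [horb, Set.ncard_diff_singleton_of_mem (zero_mem _), hs] at h3
  have h5 : Nat.card (fx a : AddSubgroup V) = ((fx a : AddSubgroup V) : Set V).ncard := rfl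
  have h6 : 0 < Nat.card (fx a : AddSubgroup V) := Nat.card_pos
  omega

theorem mono_struct [Finite G] [Finite V] [FaithfulSMul G V] {q : ℕ} [Fact q.Prime]
    [Module (ZMod q) V] (hlin : ∀ (g : G) (c : ZMod q) (v : V), g • c • v = c • g • v)
    (hinj : ∀ e : V, 2 • e = 0 → e = 0)
    (hconst : ∀ a b : V, a ≠ 0 → b ≠ 0 → Nat.card (stabilizer G a) = Nat.card (stabilizer G b))
    {a : G} (ha : ∀ g : G, (∀ v : V, a • g • v = g • a • v) ∨ (∀ v : V, a • g • v = -(g • a • v)))
    {v w : V} (h1 : a • v = v) (h2 : a • w = -w) (hv : v ≠ 0) (hw : w ≠ 0)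
    (hV : Nat.card V = q ^ 2) :
    ∃ e : V ≃ₗ[ZMod q] (Fin 2 → ZMod q), (∀ c, e.symm c = c 0 • v + c 1 • w) ∧
      (∀ g : G, ∃ α s : ZMod q, α ≠ 0 ∧ (s = 1 ∨ s = -1) ∧
        ((g • v = α • v ∧ g • w = (s * α⁻¹) • w) ∨ (g • v = α • w ∧ g • w = (s * α⁻¹) • v))) ∧
      ∀ α s : ZMod q, α ≠ 0 → (s = 1 ∨ s = -1) →
        (∃ g : G, g • v = α • v ∧ g • w = (s * α⁻¹) • w) ∧
          ∃ g : G, g • v = α • w ∧ g • w = (s * α⁻¹) • v := by
  let φ : (Fin 2 → ZMod q) →ₗ[ZMod q] V :=
    { toFun := fun c => c 0 • v + c 1 • w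
      map_add' := fun c d => by simp only [Pi.add_apply, add_smul]; abel
      map_smul' := fun r c => by simp only [Pi.smul_apply, smul_eq_mul, mul_smul, smul_add]; rfl }
  have hφ : ∀ c, φ c = c 0 • v + c 1 • w := fun _ => rfl
  have hinjφ : Function.Injective φ := by
    rw [injective_iff_map_eq_zero]
    intro c hc0
    rw [hφ] at hc0
    have h3 : c 0 • v = -(c 1 • w) := eq_neg_of_add_eq_zero_left hc0
    have h4 : c 0 • v = 0 := eq_zero_of_fx_ng hinj (t := a) (by rw [hlin, h1])
      (by rw [h3, smul_neg, hlin, h2, smul_neg])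
    rw [h4, zero_add] at hc0
    ext i
    fin_cases i
    · exact (smul_eq_zero.1 h4).resolve_right hv
    · exact (smul_eq_zero.1 hc0).resolve_right hw
  have hbij : Function.Bijective φ :=
    hinjφ.bijective_of_nat_card_le (by rw [hV, Nat.card_fun, Nat.card_zmod]; simp)
  have hspan : ∀ u : V, ∃ c d : ZMod q, u = c • v + d • w := fun u => by
    obtain ⟨c, hc⟩ := hbij.2 u
    exact ⟨c 0, c 1, hc.symm⟩
  have hfx : ∀ u : V, a • u = u → ∃ c : ZMod q, u = c • v := by
    intro u hu
    obtain ⟨c, d, rfl⟩ := hspan u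
    rw [smul_add, hlin, hlin, h1, add_right_inj] at hu
    have := eq_zero_of_fx_ng hinj (t := a) (v := d • w) (by rw [hlin, hu]) (by rw [hlin, h2, smul_neg])
    exact ⟨c, by rw [this, add_zero]⟩
  have hng : ∀ u : V, a • u = -u → ∃ c : ZMod q, u = c • w := by
    intro u hu
    obtain ⟨c, d, rfl⟩ := hspan u
    rw [smul_add, hlin, hlin, h2, smul_neg, neg_add, add_left_inj] at hu
    have := eq_zero_of_fx_ng hinj (t := a) (v := c • v) (by rw [hlin, h1]) (by rw [hlin, hu])
    exact ⟨d, by rw [this, zero_add]⟩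
  have hext : ∀ g g' : G, g • v = g' • v → g • w = g' • w → g = g' := by
    intro g g' e1 e2
    refine FaithfulSMul.eq_of_smul_eq_smul (α := V) fun u => ?_
    obtain ⟨c, d, rfl⟩ := hspan u
    rw [smul_add, smul_add, hlin, hlin, hlin, hlin, e1, e2]
  have hsw : ∀ α : ZMod q, α ≠ 0 → ∃ g : G, g • v = α • w ∧ g • w = α⁻¹ • v := by
    intro α hα
    obtain ⟨g, -, e1, e2⟩ := swap_ex hinj hconst ha h1 (w := α • w) (by rw [hlin, h2, smul_neg]) hv
      (smul_ne_zero hα hw)
    refine ⟨g, e1, ?_⟩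
    rw [← e2, hlin, smul_smul, inv_mul_cancel₀ hα, one_smul]
  obtain ⟨t, ht1, ht2⟩ := hsw 1 one_ne_zero
  rw [one_smul] at ht1
  rw [inv_one, one_smul] at ht2
  have hdg : ∀ α : ZMod q, α ≠ 0 → ∃ g : G, g • v = α • v ∧ g • w = α⁻¹ • w := by
    intro α hα
    obtain ⟨g, e1, e2⟩ := hsw α hα
    exact ⟨t * g, by rw [mul_smul, e1, hlin, ht2], by rw [mul_smul, e2, hlin, ht1]⟩
  have hvw : v + w ≠ 0 := by
    intro h
    have : w = -v := (neg_eq_of_add_eq_zero_right h).symm
    exact hv (eq_zero_of_fx_ng hinj h1 (by rw [this, smul_neg, neg_inj] at h2; exact h2))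
  have hst : ∀ g : G, g • v = v → g = 1 ∨ g = a := by
    have e1 : (stabilizer G (v + w) : Set G) ⊆ {1, t} := by
      intro g hg
      have hg' : g • v + g • w = v + w := by rw [← smul_add]; exact hg
      rcases ha g with h | h
      · have h3 : g • v - v = w - g • w := by linear_combination (norm := abel) hg'
        have h4 : a • (g • v - v) = g • v - v := by rw [smul_sub, h, h1]
        have h5 : a • (g • v - v) = -(g • v - v) := by
          rw [h3, smul_sub, h, h2, smul_neg]; abel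
        have h6 := eq_zero_of_fx_ng hinj h4 h5
        exact Or.inl (hext g 1 (by rw [one_smul]; exact sub_eq_zero.1 h6)
          (by rw [one_smul]; exact (sub_eq_zero.1 (h3 ▸ h6)).symm))
      · have h3 : g • v - w = v - g • w := by linear_combination (norm := abel) hg'
        have h4 : a • (g • v - w) = g • v - w := by rw [h3, smul_sub, h, h1, h2, smul_neg, neg_neg]
        have h5 : a • (g • v - w) = -(g • v - w) := by
          rw [smul_sub, h, h1, h2]; abel
        have h6 := eq_zero_of_fx_ng hinj h4 h5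
        exact Or.inr (hext g t (by rw [ht1]; exact sub_eq_zero.1 h6)
          (by rw [ht2]; exact (sub_eq_zero.1 (h3 ▸ h6)).symm))
    have e2 : (stabilizer G v : Set G).ncard ≤ 2 := by
      have := hconst v (v + w) hv hvw
      change (stabilizer G v : Set G).ncard = (stabilizer G (v + w) : Set G).ncard at this
      rw [this]
      exact (Set.ncard_le_ncard e1).trans (Set.ncard_insert_le _ _ |>.trans (by simp))
    have ha1 : (1 : G) ≠ a := by
      intro h
      rw [← h, one_smul] at h2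
      exact hw (hinj w (by rw [two_nsmul]; nth_rewrite 1 [h2]; abel))
    have e3 : ({1, a} : Set G) = (stabilizer G v : Set G) := by
      refine Set.eq_of_subset_of_ncard_le ?_ (by rw [Set.ncard_pair ha1]; exact e2)
      rintro g (rfl | rfl)
      · exact one_mem _
      · exact h1
    intro g hg
    have : g ∈ ({1, a} : Set G) := e3 ▸ hg
    exact this
  refine ⟨(LinearEquiv.ofBijective φ hbij).symm, fun c => rfl, fun g => ?_, fun α s hα hs => ?_⟩
  · have hgv : g • v ≠ 0 := fun h => hv ((smul_eq_zero_iff_eq g).1 h)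
    rcases ha g with h | h
    · obtain ⟨α, hα⟩ := hfx (g • v) (by rw [h, h1])
      have hα0 : α ≠ 0 := by rintro rfl; exact hgv (by rw [hα, zero_smul])
      obtain ⟨d, e1, e2⟩ := hdg α hα0
      rcases hst (d⁻¹ * g) (by rw [mul_smul, hα, ← e1, inv_smul_smul]) with e | e
      · rw [inv_mul_eq_one] at e
        exact ⟨α, 1, hα0, Or.inl rfl, Or.inl ⟨hα, by rw [← e, e2, one_mul]⟩⟩
      · rw [inv_mul_eq_iff_eq_mul] at e
        exact ⟨α, -1, hα0, Or.inr rfl, Or.inl ⟨hα, by rw [e, mul_smul, h2, smul_neg, e2]; simp⟩⟩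
    · obtain ⟨α, hα⟩ := hng (g • v) (by rw [h, h1])
      have hα0 : α ≠ 0 := by rintro rfl; exact hgv (by rw [hα, zero_smul])
      obtain ⟨d, e1, e2⟩ := hsw α hα0
      rcases hst (d⁻¹ * g) (by rw [mul_smul, hα, ← e1, inv_smul_smul]) with e | e
      · rw [inv_mul_eq_one] at e
        exact ⟨α, 1, hα0, Or.inl rfl, Or.inr ⟨hα, by rw [← e, e2, one_mul]⟩⟩
      · rw [inv_mul_eq_iff_eq_mul] at e
        exact ⟨α, -1, hα0, Or.inr rfl, Or.inr ⟨hα, by rw [e, mul_smul, h2, smul_neg, e2]; simp⟩⟩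
  · obtain ⟨d, e1, e2⟩ := hdg α hα
    obtain ⟨d', e1', e2'⟩ := hsw α hα
    rcases hs with rfl | rfl
    · exact ⟨⟨d, e1, by rw [e2, one_mul]⟩, d', e1', by rw [e2', one_mul]⟩
    · exact ⟨⟨d * a, by rw [mul_smul, h1, e1], by rw [mul_smul, h2, smul_neg, e2]; simp⟩,
        d' * a, by rw [mul_smul, h1, e1'], by rw [mul_smul, h2, smul_neg, e2']; simp⟩

end Cfsg.Agent.H2.Half
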