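/-
Half-transitive linear p-groups (Isaacs--Passman): assembly.
-/
import Cfsg.Agent.H2.Half3
import Cfsg.Agent.S0519

set_option autoImplicit false
set_option linter.style.haveILetI false

namespace Cfsg.Agent.H2.Half

open MulAction Subgroup

theorem quat_unique {n : ℕ} [NeZero n] {x y : QuaternionGroup n} (hx : x * x = 1) (hy : y * y = 1)
    (hx1 : x ≠ 1) (hy1 : y ≠ 1) : x = y := by
  have key : ∀ x : QuaternionGroup n, x * x = 1 → x ≠ 1 →
      ∃ i, x = QuaternionGroup.a i ∧ 2 * i.val = 2 * n := by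
    rintro (i | i) h h1
    · rw [QuaternionGroup.a_mul_a, QuaternionGroup.one_def, QuaternionGroup.a.injEq] at h
      rcases (ZMod.neg_eq_self_iff i).1 (neg_eq_of_add_eq_zero_right h) with h2 | h2
      · exact absurd (by rw [h2]; rfl) h1
      · exact ⟨i, rfl, h2⟩
    · have := orderOf_dvd_of_pow_eq_one (show QuaternionGroup.xa i ^ 2 = 1 by rw [pow_two, h])
      rw [QuaternionGroup.orderOf_xa] at this
      omega
  obtain ⟨i, rfl, hi⟩ := key x hx hx1
  obtain ⟨j, rfl, hj⟩ := key y hy hy1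
  haveI : NeZero (2 * n) := ⟨mul_ne_zero two_ne_zero (NeZero.ne n)⟩
  rw [ZMod.val_injective _ (show i.val = j.val by omega)]

variable {G V : Type*} [Group G] [AddCommGroup V] [DistribMulAction G V]

theorem two_case [Finite G] [Finite V] [Nontrivial V] [FaithfulSMul G V] {q : ℕ} [hq : Fact q.Prime]
    [Module (ZMod q) V] (hP : IsPGroup 2 G) (hinj : ∀ e : V, 2 • e = 0 → e = 0)
    (hconst : ∀ a b : V, a ≠ 0 → b ≠ 0 → Nat.card (stabilizer G a) = Nat.card (stabilizer G b)) :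
    ((IsCyclic G ∨ ∃ n : ℕ, Nonempty (G ≃* QuaternionGroup n)) ∧
      ∀ v : V, v ≠ 0 → ∀ g : G, g • v = v → g = 1) ∨
    (Nat.card V = q ^ 2 ∧ ∃ m : ℕ, q = 2 ^ m - 1 ∧
      (Nonempty (G ≃* DihedralGroup (2 ^ m)) ∨ (Cfsg.IsQuasiDihedral G ∧ Nat.card G = 2 ^ (m + 2)))) ∨
    (Nat.card V = q ^ 2 ∧ (∃ m : ℕ, q = 2 ^ m + 1) ∧ ∃ (a : G) (v w : V),
      (∀ g : G, (∀ v : V, a • g • v = g • a • v) ∨ (∀ v : V, a • g • v = -(g • a • v))) ∧
      a • v = v ∧ a • w = -w ∧ v ≠ 0 ∧ w ≠ 0) ∨ (Nat.card V = 81 ∧ q = 3) := by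
  have hE : ∀ e : V, q • e = 0 := fun e => by
    rw [← Nat.cast_smul_eq_nsmul (ZMod q), ZMod.natCast_self, zero_smul]
  rcases subsingleton_or_nontrivial G with hs | hn
  · exact Or.inl ⟨Or.inl isCyclic_of_subsingleton, fun _ _ _ _ => Subsingleton.elim _ _⟩
  have hinv : ∀ c : G, c ≠ 1 → ∃ k : ℕ, c ^ k ≠ 1 ∧ c ^ k * c ^ k = 1 := by
    intro c h1
    obtain ⟨k, hk1, hk2⟩ := H1.exists_pow_notMem_pow_succ_mem hP (A := ⊥) (c := c) (by simpa using h1)
    rw [mem_bot] at hk1 hk2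
    exact ⟨_, hk1, by rw [← pow_two, ← pow_mul, ← pow_succ, hk2]⟩
  obtain ⟨z, hz, hz1, hz2⟩ : ∃ z : G, (∀ g, g * z = z * g) ∧ z ≠ 1 ∧ z * z = 1 := by
    haveI := hP.center_nontrivial
    obtain ⟨⟨c, hc⟩, h1⟩ := exists_ne (1 : center G)
    obtain ⟨k, hk1, hk2⟩ := hinv c (fun h => h1 (Subtype.ext h))
    exact ⟨c ^ k, mem_center_iff.1 (pow_mem hc k), hk1, hk2⟩
  have hzn : ∀ v : V, z • v = -v := central_neg hP hinj hconst hz hz1 hz2
  have hfix : ∀ t : G, t * t = 1 → t ≠ z → ∃ v : V, v ≠ 0 ∧ t • v = v := by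
    intro t ht htz
    by_contra h
    refine htz (FaithfulSMul.eq_of_smul_eq_smul (α := V) fun v => ?_)
    rw [hzn]
    by_contra h2
    exact h ⟨t • v + v, fun h3 => h2 (eq_neg_of_add_eq_zero_left h3),
      by rw [smul_add, ← mul_smul, ht, one_smul, add_comm]⟩
  by_cases hU : ∀ t : G, t * t = 1 → t = 1 ∨ t = z
  · left
    constructor
    · refine (H1.isCyclic_or_quaternion hP fun x y hx hy => ?_).imp id fun ⟨_, n, _, e⟩ => ⟨_, e⟩
      have hx2 : x * x = 1 := by rw [← pow_two, ← hx, pow_orderOf_eq_one]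
      have hx1 : x ≠ 1 := by rintro rfl; simp at hx
      rcases hU y (by rw [← pow_two, hy]) with h | h
      · rw [h]; exact one_mem _
      · rw [h, ← (hU x hx2).resolve_left hx1]; exact mem_zpowers x
    · intro v hv g hg
      by_contra h1
      obtain ⟨k, hk1, hk2⟩ := hinv g h1
      have := BS.pow_smul_of_fix hg k
      rw [(hU _ hk2).resolve_left hk1] at this
      exact hv (eq_zero_of_fx_ng hinj this (hzn v))
  right
  push Not at hU
  obtain ⟨t, ht2, ht1, htz⟩ := hU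
  have hns : ∀ v : V, v ≠ 0 → ∃ g : G, g ≠ 1 ∧ g • v = v := by
    intro v hv
    obtain ⟨u, hu, htu⟩ := hfix t ht2 htz
    by_contra h
    push Not at h
    have h1 : stabilizer G v = ⊥ := eq_bot_iff.2 fun g hg => by
      by_contra h2
      exact h g h2 hg
    have h2 := hconst u v hu hv
    rw [h1, card_bot, card_eq_one] at h2
    have : t ∈ stabilizer G u := htu
    rw [h2] at this
    exact ht1 this
  by_cases hK : ∃ K : Subgroup G, K.Normal ∧ IsKleinFour K
  · right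
    obtain ⟨K, hKn, hK⟩ := hK
    have hsq : ∀ x ∈ K, x * x = 1 := fun x hx => H11.klein_sq hK hx
    have hKb : K ≠ ⊥ := by
      intro h
      have := hK.card_four
      rw [h, card_bot] at this; omega
    have hzK : z ∈ K := by
      obtain ⟨⟨c, hc⟩, h1⟩ := ne_bot_iff_exists_ne_one.1 (H3.inf_center_ne_bot hP.isNilpotent K hKb)
      have hc1 : c ≠ 1 := fun h => h1 (Subtype.ext h)
      have : c = z := FaithfulSMul.eq_of_smul_eq_smul (α := V) fun v => by
        rw [hzn, central_neg hP hinj hconst (mem_center_iff.1 hc.2) hc1 (hsq c hc.1)]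
      exact this ▸ hc.1
    obtain ⟨a, haK, ha1, haz⟩ : ∃ a ∈ K, a ≠ 1 ∧ a ≠ z := by
      by_contra h
      push Not at h
      have h1 : (K : Set G) ⊆ {1, z} := fun x hx => by
        by_cases hx1 : x = 1
        · exact Or.inl hx1
        · exact Or.inr (h x hx hx1)
      have h2 : (K : Set G).ncard = 4 := hK.card_four
      have := (Set.ncard_le_ncard h1).trans (Set.ncard_insert_le _ _)
      rw [h2, Set.ncard_singleton] at this
      omega
    have hcj : ∀ g : G, g * a * g⁻¹ = a ∨ g * a * g⁻¹ = a * z := by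
      intro g
      have hm := hKn.conj_mem a haK g
      by_cases h : g * a * g⁻¹ = a
      · exact Or.inl h
      right
      have h1 : g * a * g⁻¹ ≠ 1 := fun h => ha1 (by simpa using h)
      have h2 : g * a * g⁻¹ ≠ z := fun h => haz (by
        rw [mul_inv_eq_iff_eq_mul, ← hz g] at h; exact mul_left_cancel h)
      have := IsKleinFour.eq_mul_of_ne_all (G := K) (x := ⟨a, haK⟩) (y := ⟨z, hzK⟩) (z := ⟨_, hm⟩)
        (fun e => ha1 (congrArg Subtype.val e)) (fun e => hz1 (congrArg Subtype.val e))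
        (fun e => haz (congrArg Subtype.val e)) (fun e => h1 (congrArg Subtype.val e))
        (fun e => h (congrArg Subtype.val e)) (fun e => h2 (congrArg Subtype.val e))
      exact congrArg Subtype.val this
    have ha : ∀ g : G, (∀ v : V, a • g • v = g • a • v) ∨ (∀ v : V, a • g • v = -(g • a • v)) := by
      intro g
      rcases hcj g with h | h
      · left; intro v
        rw [← mul_smul, ← mul_smul, mul_inv_eq_iff_eq_mul.1 h]
      · right; intro v
        rw [← mul_smul g, mul_inv_eq_iff_eq_mul.1 h, mul_smul, mul_smul, hzn, smul_neg, neg_neg]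
    obtain ⟨v, hv, h1⟩ := hfix a (hsq a haK) haz
    obtain ⟨w, hw, h2⟩ := hfix (a * z) (hsq _ (mul_mem haK hzK)) (fun h => ha1 (by simpa using h))
    rw [mul_smul, hzn, smul_neg, neg_eq_iff_eq_neg] at h2
    obtain ⟨s, hs⟩ := klein_card hP hinj hconst ha h1 h2 hv hw
    obtain ⟨g, hg, -⟩ := swap_ex hinj hconst ha h1 h2 hv hw
    have hV := card_split hinj (hsq a haK)
    rw [← card_fx_eq_ng hg] at hV
    obtain ⟨b, hb⟩ := card_eq_pow hq.out hE (fx a : AddSubgroup V)
    have hq2 : q ≠ 2 := by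
      rintro rfl
      exact hv (hinj v (hE v))
    have hb1 : 1 ≤ b := by
      rcases Nat.eq_zero_or_pos b with rfl | h
      · have : 1 ≤ 2 ^ s := Nat.one_le_two_pow
        rw [pow_zero] at hb; omega
      · exact h
    have hs1 : 1 ≤ s := by
      rcases Nat.eq_zero_or_pos s with rfl | h
      · exfalso
        rw [hb] at hs
        exact hq2 ((Nat.prime_dvd_prime_iff_eq hq.out Nat.prime_two).1
          ((dvd_pow_self q (show b ≠ 0 by omega)).trans (by rw [hs]; norm_num)))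
      · exact h
    rw [hb] at hs hV
    rcases S3784.result q 2 b s hq.out Nat.prime_two hb1 hs1 hs with
      ⟨h, -⟩ | ⟨-, h3, -, h4⟩ | ⟨h3, -⟩
    · exact absurd h hq2
    · left
      rw [h3, pow_one, ← pow_two] at hV
      exact ⟨hV, ⟨s, h4⟩, a, v, w, ha, h1, h2, hv, hw⟩
    · right
      refine ⟨by rw [hV, h3], ?_⟩
      have : q ∣ 3 ^ 2 := (dvd_pow_self q (show b ≠ 0 by omega)).trans (by rw [h3]; norm_num)
      exact (Nat.prime_dvd_prime_iff_eq hq.out Nat.prime_three).1 (hq.out.dvd_of_dvd_pow this)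
  left
  have hot : orderOf t = 2 := orderOf_eq_prime (by rw [pow_two, ht2]) ht1
  have hoz : orderOf z = 2 := orderOf_eq_prime (by rw [pow_two, hz2]) hz1
  have hK4 := H11.isKleinFour_closure hot hoz htz (hz t)
  rcases (S0519.result 2 hP (fun A hA hc => by
      by_contra h
      obtain ⟨K, -, h1, h2⟩ := H11.exists_normal_klein_le hP (H3.isMulCommutative_iff_mem.1 hc) h
      exact hK ⟨K, h1, h2⟩) ⟨_, hK4.isMulCommutative, hK4.not_isCyclic⟩).2 with
    ⟨n, ⟨e⟩⟩ | ⟨n, hn, ⟨e⟩⟩ | hqd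
  · exfalso
    haveI : NeZero n := ⟨by
      rintro rfl
      haveI : Finite (QuaternionGroup 0) := Finite.of_equiv G e.toEquiv
      haveI : Finite ℤ := Finite.of_injective (QuaternionGroup.a (n := 0))
        fun _ _ h => QuaternionGroup.a.inj h
      exact not_finite ℤ⟩
    exact htz (e.injective (quat_unique (by rw [← map_mul, ht2, map_one])
      (by rw [← map_mul, hz2, map_one]) (by simpa using ht1) (by simpa using hz1)))
  · haveI : NeZero n := ⟨by omega⟩
    have hc : Nat.card G = 2 * n := by rw [Nat.card_congr e.toEquiv, DihedralGroup.nat_card]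
    obtain ⟨k, hk⟩ := IsPGroup.iff_card.1 hP
    obtain ⟨m, -, rfl⟩ := (Nat.dvd_prime_pow Nat.prime_two).1
      (show n ∣ 2 ^ k by rw [← hk, hc]; exact dvd_mul_left _ _)
    have hm : 2 ≤ m := by
      by_contra h
      have : m = 0 ∨ m = 1 := by omega
      rcases this with rfl | rfl <;> omega
    obtain ⟨h1, h2⟩ := dih_count hq.out hE hP hinj hconst hns (x := e.symm (DihedralGroup.r 1))
      (y := e.symm (DihedralGroup.sr 0)) hm le_rfl
      (by rw [MulEquiv.orderOf_eq, DihedralGroup.orderOf_r_one]) (by rw [hc, pow_succ, mul_comm])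
      (by rw [← map_mul, DihedralGroup.sr_mul_self, map_one]) (by
        rw [← map_inv, ← map_mul, ← map_mul, ← map_pow, DihedralGroup.r_one_pow]
        congr 1
        rw [Nat.cast_sub Nat.one_le_two_pow, ZMod.natCast_self]
        simp)
    exact ⟨h1, m, h2, Or.inl ⟨e⟩⟩
  · obtain ⟨n, hn, hc, x, y, hx, hy, hxy⟩ := id hqd
    obtain ⟨h1, h2⟩ := dih_count hq.out hE hP hinj hconst hns (m := n - 1) (by omega) (by omega) hx hc
      (by rw [← pow_two, ← hy, pow_orderOf_eq_one]) hxy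
    exact ⟨h1, n - 1, h2, Or.inr ⟨hqd, by rw [hc]; congr 1; omega⟩⟩

theorem half_transitive (q : ℕ) [hq : Fact q.Prime] {V : Type*} [AddCommGroup V] [Module (ZMod q) V]
    [Finite V] [Nontrivial V] {G : Type*} [Group G] [Finite G] (p : ℕ) [hp : Fact p.Prime]
    (hG : IsPGroup p G) (ρ : G →* (V ≃ₗ[ZMod q] V)) (hρ : Function.Injective ρ)
    (hhalf : ∀ v w : V, v ≠ 0 → w ≠ 0 → Nat.card {u : V | ∃ g : G, ρ g v = u} = Nat.card {u : V | ∃ g : G, ρ g w = u}) :
    ((IsCyclic G ∨ ∃ n : ℕ, Nonempty (G ≃* QuaternionGroup n)) ∧ ∀ v : V, v ≠ 0 → ∀ g : G, ρ g v = v → g = 1) ∨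
    (Nat.card V = q ^ 2 ∧ ∃ m : ℕ, q = 2 ^ m - 1 ∧
      (Nonempty (G ≃* DihedralGroup (2 ^ m)) ∨ (Cfsg.IsQuasiDihedral G ∧ Nat.card G = 2 ^ (m + 2)))) ∨
    (Nat.card V = q ^ 2 ∧ (∃ m : ℕ, q = 2 ^ m + 1) ∧
      ∃ e : V ≃ₗ[ZMod q] (Fin 2 → ZMod q), ∀ f : (Fin 2 → ZMod q) ≃ₗ[ZMod q] (Fin 2 → ZMod q),
        (∃ g : G, f = e.symm.trans ((ρ g).trans e)) ↔
        ∃ a s : ZMod q, a ≠ 0 ∧ (s = 1 ∨ s = -1) ∧
          ((∀ v, f v = ![a * v 0, s * a⁻¹ * v 1]) ∨ (∀ v, f v = ![s * a⁻¹ * v 1, a * v 0]))) ∨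
    (Nat.card V = 81 ∧ q = 3 ∧ p = 2) := by
  letI : DistribMulAction G V := DistribMulAction.compHom V ρ
  have hsm : ∀ (g : G) (v : V), g • v = ρ g v := fun _ _ => rfl
  haveI : FaithfulSMul G V := ⟨fun h => hρ (LinearEquiv.ext h)⟩
  have hE : ∀ e : V, q • e = 0 := fun e => by
    rw [← Nat.cast_smul_eq_nsmul (ZMod q), ZMod.natCast_self, zero_smul]
  have hconst : ∀ a b : V, a ≠ 0 → b ≠ 0 →
      Nat.card (stabilizer G a) = Nat.card (stabilizer G b) := by
    intro a b ha hb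
    have h1 : (stabilizer G a).index = (stabilizer G b).index := by
      rw [index_stabilizer, index_stabilizer]; exact hhalf a b ha hb
    have h2 := (stabilizer G a).card_mul_index
    rw [← (stabilizer G b).card_mul_index, h1] at h2
    exact Nat.eq_of_mul_eq_mul_right (Nat.pos_of_ne_zero index_ne_zero_of_finite) h2
  by_cases hp2 : p = 2
  swap
  · obtain ⟨h1, h2⟩ := BS.cyclic_fpf_of_const hp2 hG hq.out hE hconst
    exact Or.inl ⟨Or.inl h1, fun v hv g hg => by_contra fun h => hv (h2 g h v hg)⟩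
  subst hp2
  by_cases hq2 : q = 2
  · subst hq2
    obtain ⟨e, he⟩ := exists_ne (0 : V)
    have hd : 2 ∣ Nat.card V := by
      rw [← addOrderOf_eq_prime (hE e) he]; exact addOrderOf_dvd_natCard e
    obtain ⟨b, hb, hb0⟩ := hG.exists_fixed_point_of_prime_dvd_card_of_fixed_point V hd
      (a := 0) (fun g => smul_zero g)
    have h1 : ∀ g : G, g = 1 := fun g => FaithfulSMul.eq_of_smul_eq_smul (α := V) fun e => by
      rw [one_smul]
      by_cases he : e = 0
      · rw [he, smul_zero]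
      have h1 : stabilizer G b = ⊤ := eq_top_iff.2 fun g _ => hb g
      have h2 := hconst e b he hb0.symm
      rw [h1, card_top] at h2
      have : g ∈ stabilizer G e := by rw [eq_top_of_card_eq _ h2]; trivial
      exact this
    haveI : Subsingleton G := ⟨fun x y => by rw [h1 x, h1 y]⟩
    exact Or.inl ⟨Or.inl isCyclic_of_subsingleton, fun _ _ g _ => h1 g⟩
  have hinj : ∀ e : V, 2 • e = 0 → e = 0 := by
    intro e he
    have h1 := addOrderOf_dvd_of_nsmul_eq_zero he
    have h2 := addOrderOf_dvd_of_nsmul_eq_zero (hE e)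
    exact AddMonoid.addOrderOf_eq_one_iff.1
      (Nat.eq_one_of_dvd_coprimes ((Nat.coprime_primes Nat.prime_two hq.out).2 (Ne.symm hq2)) h1 h2)
  rcases two_case (q := q) hG hinj hconst with h | h | ⟨hV, hm, a, v, w, ha, h1, h2, hv, hw⟩ | ⟨h1, h2⟩
  · exact Or.inl h
  · exact Or.inr (Or.inl h)
  swap
  · exact Or.inr (Or.inr (Or.inr ⟨h1, h2, rfl⟩))
  have hlin : ∀ (g : G) (c : ZMod q) (v : V), g • c • v = c • g • v := fun g c v => map_smul (ρ g) c v
  obtain ⟨e, he, h3, h4⟩ := mono_struct hlin hinj hconst ha h1 h2 hv hw hV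
  have f1 : ∀ (g : G) (α β : ZMod q), g • v = α • v → g • w = β • w → ∀ c,
      e.symm.trans ((ρ g).trans e) c = ![α * c 0, β * c 1] := by
    intro g α β e1 e2 c
    change e (g • e.symm c) = _
    rw [← LinearEquiv.eq_symm_apply, he, he, smul_add, hlin, hlin, e1, e2, smul_smul, smul_smul,
      mul_comm (c 0), mul_comm (c 1)]
    rfl
  have f2 : ∀ (g : G) (α β : ZMod q), g • v = α • w → g • w = β • v → ∀ c,
      e.symm.trans ((ρ g).trans e) c = ![β * c 1, α * c 0] := by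
    intro g α β e1 e2 c
    change e (g • e.symm c) = _
    rw [← LinearEquiv.eq_symm_apply, he, he, smul_add, hlin, hlin, e1, e2, smul_smul, smul_smul,
      mul_comm (c 0), mul_comm (c 1), add_comm]
    rfl
  refine Or.inr (Or.inr (Or.inl ⟨hV, hm, e, fun f => ⟨?_, ?_⟩⟩))
  · rintro ⟨g, rfl⟩
    obtain ⟨α, s, hα, hs, h | h⟩ := h3 g
    · exact ⟨α, s, hα, hs, Or.inl (f1 g _ _ h.1 h.2)⟩
    · exact ⟨α, s, hα, hs, Or.inr (f2 g _ _ h.1 h.2)⟩
  · rintro ⟨α, s, hα, hs, h | h⟩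
    · obtain ⟨g, e1, e2⟩ := (h4 α s hα hs).1
      exact ⟨g, LinearEquiv.ext fun c => by rw [h, f1 g _ _ e1 e2]⟩
    · obtain ⟨g, e1, e2⟩ := (h4 α s hα hs).2
      exact ⟨g, LinearEquiv.ext fun c => by rw [h, f2 g _ _ e1 e2]⟩

end Cfsg.Agent.H2.Half
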