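import Cfsg.Agent.H8.Cyclo
import Cfsg.Agent.H8.Deg1

/-! Square roots of the Knörr generalized character: the counting argument. -/

namespace Cfsg.Agent.H2.KGV
open Cfsg Cfsg.Agent.H4 Cfsg.Agent.H5 Cfsg.Agent.H6 Finset
open scoped ComplexConjugate

variable {p : ℕ} [hp : Fact p.Prime] {H : Type*} [Group H] [Fintype H]

theorem isGen_slice {K : Type*} [Group K] [Fintype K] {Φ : H × K → ℂ}
    (hΦ : IsGeneralizedCharacter (H × K) Φ) {η : H → ℂ} (hη : IsIrrCharacter H η) :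
    IsGeneralizedCharacter K (fun c => classInner (fun h => Φ (h, c)) η) := by
  refine H4.Cfsg.IsClassFunction.isGen_of_int (fun c x => ?_) fun lam hl => ?_
  · congr 1
    funext h
    simpa using hΦ.isClassFunction (h, c) (1, x)
  · obtain ⟨n, hn⟩ := hΦ.classInner_int (hη.prod hl).isGen
    refine ⟨n, hn ▸ ?_⟩
    simp only [classInner_def, Nat.card_prod, Fintype.sum_prod_type_right, map_mul, mul_sum, sum_mul]
    refine sum_congr rfl fun c _ => sum_congr rfl fun h _ => ?_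
    push_cast; ring

/-- the cyclic group of order `p` -/
abbrev C (p : ℕ) := Multiplicative (ZMod p)

/-- the generator of `C p` attached to a unit -/
def gen (u : (ZMod p)ˣ) : C p := Multiplicative.ofAdd (u : ZMod p)

theorem gen_ne (u : (ZMod p)ˣ) : gen u ≠ 1 := u.ne_zero

theorem gen_eq (u : (ZMod p)ˣ) : gen 1 ^ (u : ZMod p).val = gen u := by
  simp [gen, ← ofAdd_nsmul]

theorem pow_p (c : C p) : c ^ p = 1 := by
  have := pow_card_eq_one' (x := c)
  simpa using this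

variable {M : Ideal AlgInt} [M.IsMaximal]

theorem low (hM : IsPModular p M) (hH : ¬ p ∣ Nat.card H) {Φ : H × C p → ℂ}
    (hΦ : IsGeneralizedCharacter (H × C p) Φ) (m : ℕ) (ψ : (ZMod p)ˣ → H → ℂ)
    (h1 : ∀ u h, Φ (h, gen u) = (p : ℂ) ^ m * ψ u h) (h2 : ∀ u h, IsIntegral ℤ (ψ u h))
    (h3 : redC M (ψ 1 1) ≠ 0) (h4 : ∀ h, h ≠ 1 → redC M (ψ 1 h) = 0) :
    (Fintype.card (ZMod p)ˣ : ℝ) * Nat.card (ConjClasses H) * Nat.card H ≤ ∑ u, ∑ h, ‖ψ u h‖ ^ 2 := by
  classical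
  have := charP_res hM
  have hp0 : (p : ℂ) ≠ 0 := Nat.cast_ne_zero.2 hp.out.ne_zero
  have hp1 : (0 : ℝ) < (p : ℝ) ^ m := by have := hp.out.pos; positivity
  have hH0 : (Nat.card H : ℂ) ≠ 0 := natCard_ne_zero'
  have e1 : ∀ u (η : H → ℂ), classInner (fun h => Φ (h, gen u)) η = (p : ℂ) ^ m * classInner (ψ u) η := fun u η => by
    rw [← classInner_smul_left]; congr 1; funext h; exact h1 u h
  have hcl : ∀ u, IsClassFunction H (ψ u) := fun u g x => by
    have := hΦ.isClassFunction (g, gen u) (x, 1)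
    simp only [Prod.mk_mul_mk, Prod.inv_mk, one_mul, inv_one, mul_one, h1] at this
    exact mul_left_cancel₀ (pow_ne_zero _ hp0) this
  have key : ∀ η : IrrCharacter H, (Fintype.card (ZMod p)ˣ : ℝ) ≤ ∑ u, ‖classInner (ψ u) η‖ ^ 2 := fun η => by
    have hb := isGen_slice hΦ η.2
    obtain ⟨z, hz⟩ := exists_int_prod_pow (n := p) (fun c => classInner (fun h => Φ (h, c)) η) (gen 1) (pow_p _) (hb.isIntegral _)
      fun σ k hσ j => hb.map_apply_eq_pow hσ (pow_p _)
    have hint : ∀ u, IsIntegral ℤ ((Nat.card H : ℂ) * classInner (ψ u) η) := fun u => by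
      rw [card_mul_classInner]
      exact IsIntegral.sum _ fun h _ => (h2 u h).mul (isIntegral_conj (η.2.isCharacter.isIntegral h))
    have hne : classInner (ψ 1) η ≠ 0 := fun e => by
      have e2 := card_mul_classInner (ψ 1) η
      have hl : ∀ h, conj (η.1 h) ∈ locRing M := fun h =>
        mem_locRing_of_isIntegral (isIntegral_conj (η.2.isCharacter.isIntegral h))
      rw [e, mul_zero] at e2
      have e3 := congrArg (redC M) e2
      rw [redC_zero, redC_sum _ fun h _ => mul_mem (mem_locRing_of_isIntegral (h2 1 h)) (hl h),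
        sum_eq_single 1 (fun h _ hh => by
          rw [redC_mul (mem_locRing_of_isIntegral (h2 1 h)) (hl h), h4 h hh, zero_mul]) (by simp),
        redC_mul (mem_locRing_of_isIntegral (h2 1 1)) (hl 1)] at e3
      obtain ⟨d, -, hd⟩ := η.2.exists_degree
      rw [hd, Complex.conj_natCast, redC_natCast] at e3
      rcases mul_eq_zero.1 e3.symm with e | e
      · exact h3 e
      · exact hH (((CharP.cast_eq_zero_iff _ p d).1 e).trans (η.2.degree_dvd_card hd))
    have hz0 : z ≠ 0 := by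
      rintro rfl
      obtain ⟨u, -, hu⟩ := prod_eq_zero_iff.1 (hz.trans Int.cast_zero)
      rw [hb.apply_pow_eq_zero_iff ((ZMod.val_coe_unit_coprime u).coprime_dvd_right
        (orderOf_dvd_of_pow_eq_one (pow_p _))), e1] at hu
      exact mul_ne_zero (pow_ne_zero _ hp0) hne hu
    simp only [gen_eq, e1] at hz
    set f := Fintype.card (ZMod p)ˣ
    have hdvd : ((p : ℤ) ^ m) ^ f ∣ z * (Nat.card H : ℤ) ^ f := by
      refine int_dvd_of_isIntegral_div (by have := hp.out.ne_zero; positivity) ?_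
      have := IsIntegral.prod (s := univ) _ fun u _ => hint u
      refine Eq.mp (congrArg _ (Eq.symm ?_)) this
      push_cast
      rw [← hz, prod_mul_distrib, prod_mul_distrib, prod_const, prod_const, card_univ]
      simp only [f]
      field_simp
    have hdvd' : ((p : ℤ) ^ m) ^ f ∣ z := by
      refine IsCoprime.dvd_of_dvd_mul_right (IsCoprime.pow (IsCoprime.pow_left ?_)) hdvd
      exact Nat.isCoprime_iff_coprime.2 ((Nat.Prime.coprime_iff_not_dvd hp.out).2 hH)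
    have h5 := H8.cyc_sum_normSq_ge_of (N := p) (x := fun k => (p : ℂ) ^ m * classInner
      (fun h => Φ (h, gen 1 ^ k) / (p : ℂ) ^ m) η) hp1 (by
        have : ∀ u : (ZMod p)ˣ, (fun h => Φ (h, gen 1 ^ (u : ZMod p).val) / (p : ℂ) ^ m) = ψ u := fun u => by
          funext h; rw [gen_eq, h1]; field_simp
        simp only [this]
        rw [hz, Complex.norm_intCast]
        have := Int.le_of_dvd (abs_pos.2 hz0) ((dvd_abs _ _).2 hdvd')
        exact_mod_cast this)
    have : ∀ u : (ZMod p)ˣ, (fun h => Φ (h, gen 1 ^ (u : ZMod p).val) / (p : ℂ) ^ m) = ψ u := fun u => by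
      funext h; rw [gen_eq, h1]; field_simp
    simp only [this, norm_mul, mul_pow, ← mul_sum, norm_pow, Complex.norm_natCast] at h5
    rw [mul_comm] at h5
    exact le_of_mul_le_mul_left h5 (by positivity)
  have h6 : ∀ u, ∑ h, ‖ψ u h‖ ^ 2 = Nat.card H * ∑ η : IrrCharacter H, ‖classInner (ψ u) η‖ ^ 2 := fun u => by
    have e2 := congrArg Complex.re ((hcl u).classInner_eq_sum (ψ u))
    rw [classInner_self_re, Complex.re_sum] at e2
    simp only [Complex.mul_conj, Complex.ofReal_re, ← Complex.sq_norm] at e2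
    rw [← e2]
    have : (Nat.card H : ℝ) ≠ 0 := by exact_mod_cast Nat.card_pos.ne'
    field_simp
  simp only [h6, ← mul_sum]
  rw [sum_comm, mul_comm]
  refine mul_le_mul_of_nonneg_left ?_ (Nat.cast_nonneg _)
  have := card_nsmul_le_sum univ _ _ fun η _ => key η
  rwa [nsmul_eq_mul, card_univ, ← Nat.card_eq_fintype_card, card_irr_eq_card_conjClasses, mul_comm] at this

/-- `r` is the squared absolute value of a suitable combination of characters. -/
def Good (p : ℕ) (M : Ideal AlgInt) [M.IsMaximal] {H : Type*} [Group H] (r : H → ℝ) : Prop :=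
  ∃ (m : ℕ) (Θ : H × C p → ℂ), IsGeneralizedCharacter (H × C p) Θ ∧ ∀ c, c ≠ 1 → ∀ h, ∃ ψ : ℂ,
    Θ (h, c) = (p : ℂ) ^ m * ψ ∧ IsIntegral ℤ ψ ∧ ‖ψ‖ ^ 2 = r h ∧ (r h ≠ 1 → redC M ψ = 0) ∧ (h = 1 → ψ = 1)

omit hp [Fintype H] in
theorem Good.one : Good p M (fun _ : H => 1) :=
  ⟨0, _, isGen_one, fun _ _ _ => ⟨1, by simp, isIntegral_one, by simp, by simp, by simp⟩⟩

omit hp [Fintype H] in
theorem Good.mul {r s : H → ℝ} (h : Good p M r) (h' : Good p M s) : Good p M (fun x => r x * s x) := by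
  obtain ⟨m, Θ, a, b⟩ := h
  obtain ⟨m', Θ', a', b'⟩ := h'
  refine ⟨m + m', _, a.mul a', fun c hc x => ?_⟩
  obtain ⟨ψ, c1, c2, c3, c4, c5⟩ := b c hc x
  obtain ⟨ψ', d1, d2, d3, d4, d5⟩ := b' c hc x
  refine ⟨ψ * ψ', by rw [Pi.mul_apply, c1, d1]; ring, c2.mul d2, by rw [norm_mul, mul_pow, c3, d3], fun e => ?_,
    fun e => by rw [c5 e, d5 e, mul_one]⟩
  rw [redC_mul (mem_locRing_of_isIntegral c2) (mem_locRing_of_isIntegral d2)]
  by_cases e1 : r x = 1
  · rw [d4 fun e2 => e (by simp [e1, e2]), mul_zero]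
  · rw [c4 e1, zero_mul]

omit hp [Fintype H] in
theorem exists_inv {π : H → ℂ} (hπ : IsGeneralizedCharacter H π) (n : ℕ) :
    ∃ (m : ℕ) (δ : H → ℂ), IsGeneralizedCharacter H δ ∧
      ∀ h, ∏ j ∈ range n, ((p : ℂ) ^ j - π h) = (p : ℂ) ^ m - π h * δ h := by
  induction n with
  | zero => exact ⟨0, 0, isGen_zero, by simp⟩
  | succ n ih =>
    obtain ⟨m, δ, a, b⟩ := ih
    refine ⟨m + n, _, ((isGen_one.natCast_smul (p ^ m)).add (a.natCast_smul (p ^ n))).sub (hπ.mul a), fun h => ?_⟩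
    rw [prod_range_succ, b]
    simp only [Pi.sub_apply, Pi.add_apply, Pi.smul_apply, Pi.mul_apply, smul_eq_mul]
    push_cast; ring

theorem good_of {π : H → ℕ} (hπ : IsGeneralizedCharacter H fun h => π h) {n : ℕ} (hn : ∀ h, π h ∣ p ^ n)
    {Γ : H × C p → ℂ} (hΓ : IsGeneralizedCharacter (H × C p) Γ)
    (h1 : ∀ c, c ≠ 1 → ∀ h, ‖Γ (h, c)‖ ^ 2 = π h)
    (h2 : ∀ c, c ≠ 1 → ∀ h, ∃ ψ : ℂ, Γ (h, c) * ψ = Γ (1, c) ∧ IsIntegral ℤ ψ ∧ (π h ≠ π 1 → redC M ψ = 0)) :
    Good p M fun h => (π 1 : ℝ) / π h := by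
  obtain ⟨m, δ, a, b⟩ := exists_inv (p := p) hπ (n + 1)
  have h0 : ∀ h, (0 : ℝ) < π h := fun h => by
    exact_mod_cast Nat.pos_of_dvd_of_pos (hn h) (pow_pos hp.out.pos _)
  have b' : ∀ h, π h * δ h = (p : ℂ) ^ m := fun h => by
    obtain ⟨j, hj, e⟩ := (Nat.dvd_prime_pow hp.out).1 (hn h)
    have := b h
    rw [prod_eq_zero (i := j) (mem_range.2 (by omega)) (by rw [e]; simp)] at this
    exact (sub_eq_zero.1 this.symm).symm
  refine ⟨m, _, (hΓ.conj.mul (hΓ.comp ((1 : H × C p →* H).prod (MonoidHom.snd _ _)))).mul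
    (a.comp (MonoidHom.fst _ _)), fun c hc h => ?_⟩
  obtain ⟨ψ, c1, c2, c3⟩ := h2 c hc h
  have e1 : conj (Γ (h, c)) * Γ (h, c) = π h := by
    rw [mul_comm, Complex.mul_conj, ← Complex.sq_norm, h1 c hc]; simp
  have e2 : ‖ψ‖ ^ 2 = (π 1 : ℝ) / π h := by
    rw [eq_div_iff (h0 h).ne', ← h1 c hc, ← h1 c hc, ← c1, norm_mul]; ring
  refine ⟨ψ, ?_, c2, e2, fun e => c3 fun e' => e (by beta_reduce; rw [e', div_self (h0 _).ne']), fun e => ?_⟩
  · change conj (Γ (h, c)) * Γ (1, c) * δ h = _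
    rw [← c1, ← b' h, ← e1]; ring
  · subst e
    refine mul_left_cancel₀ (fun e => (h0 1).ne' ?_) (c1.trans (mul_one _).symm)
    rw [← h1 c hc, e]; simp

end Cfsg.Agent.H2.KGV
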