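import Cfsg.Agent.H2.KGV1

/-! Gauss sums on orthogonal modules. -/

namespace Cfsg.Agent.H2.KGV
open Cfsg Cfsg.Agent.H4 Cfsg.Agent.H5 Cfsg.Agent.H6 Finset
open scoped ComplexConjugate

variable {p : ℕ} [hp : Fact p.Prime] {H : Type*} [Group H] [Fintype H]
  {W : Type*} [AddCommGroup W] [Module (ZMod p) W] [Fintype W] (ρ : Representation (ZMod p) H W)

/-- the fixed space of an element -/
def fix (h : H) : Submodule (ZMod p) W := LinearMap.ker (ρ h - 1)

omit [Fintype H] [Fintype W] in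
theorem mem_fix {h : H} {u : W} : u ∈ fix ρ h ↔ ρ h u = u := by simp [fix, sub_eq_zero]

omit [Fintype H] [Fintype W] in
theorem fix_one : fix ρ 1 = ⊤ := by simp [fix]

omit [Fintype H] [Fintype W] in
theorem card_fix_one : Nat.card (fix ρ 1) = Nat.card W := by
  rw [fix_one]; exact Nat.card_congr Submodule.topEquiv.toEquiv

omit [Fintype H] in
theorem perm_char (S : Set W) (hS : ∀ h, ∀ u ∈ S, ρ h u ∈ S) :
    IsCharacter H fun h => (Nat.card {u // u ∈ S ∧ ρ h u = u} : ℂ) := by
  letI : MulAction H S :=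
    { smul := fun h u => ⟨ρ h u, hS h u u.2⟩
      one_smul := fun u => Subtype.ext (by change ρ 1 u = u; simp)
      mul_smul := fun a b u => Subtype.ext (by change ρ (a * b) u = ρ a (ρ b u); simp) }
  convert isCharacter_perm (G := H) S using 3 with h
  exact Nat.card_congr ⟨fun u => ⟨⟨u.1, u.2.1⟩, Subtype.ext u.2.2⟩,
    fun u => ⟨u.1.1, u.1.2, congrArg Subtype.val u.2⟩, fun _ => rfl, fun _ => rfl⟩

omit [Fintype H] in
theorem fix_char : IsGeneralizedCharacter H fun h => (Nat.card (fix ρ h) : ℂ) := by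
  convert (perm_char ρ Set.univ fun _ _ _ => trivial).isGen using 3 with h
  exact Nat.card_congr (Equiv.subtypeEquivRight fun u => by simp [mem_fix])

theorem card_pow (p : ℕ) [Fact p.Prime] (W : Type*) [AddCommGroup W] [Module (ZMod p) W] [Finite W] :
    Nat.card W = p ^ Module.finrank (ZMod p) W := by
  rw [Module.natCard_eq_pow_finrank (K := ZMod p), Nat.card_zmod]

omit [Fintype H] in
theorem fix_dvd (h : H) : Nat.card (fix ρ h) ∣ p ^ Module.finrank (ZMod p) W := by
  rw [card_pow p]; exact pow_dvd_pow _ (Submodule.finrank_le _)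

omit [Fintype W] in
theorem fix_nd (hH : ¬ p ∣ Nat.card H) {S : LinearMap.BilinForm (ZMod p) W}
    (hS : ∀ g x y, S (ρ g x) (ρ g y) = S x y) {h : H} {x : W} (hx : x ∈ fix ρ h)
    (h0 : ∀ w ∈ fix ρ h, S x w = 0) (w : W) : S x w = 0 := by
  classical
  have h1 := h0 (∑ g : Subgroup.zpowers h, ρ g w) (by
    rw [mem_fix, map_sum]
    exact Fintype.sum_equiv (Equiv.mulLeft ⟨h, Subgroup.mem_zpowers h⟩) _ _ fun g => by simp)
  have h2 : ∀ g : Subgroup.zpowers h, S x (ρ g w) = S x w := fun g => by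
    have : ρ g x = x := by
      obtain ⟨k, hk⟩ := (mem_powers_iff_mem_zpowers.2 g.2)
      rw [← hk, map_pow, Module.End.pow_apply]
      exact Function.iterate_fixed ((mem_fix ρ).1 hx) k
    conv_lhs => rw [← this, hS]
  simp only [map_sum, h2, sum_const, card_univ, nsmul_eq_mul] at h1
  refine (mul_eq_zero.1 h1).resolve_left fun e => hH ?_
  rw [ZMod.natCast_eq_zero_iff, ← Nat.card_eq_fintype_card] at e
  exact e.trans (Subgroup.card_subgroup_dvd_card _)

theorem e_pow (a : ZMod p) : ZMod.stdAddChar a ^ p = 1 := by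
  rw [← AddChar.map_nsmul_eq_pow]; simp

theorem gauss_norm {Y : Type*} [AddCommGroup Y] [Module (ZMod p) Y] [Fintype Y] (B : LinearMap.BilinForm (ZMod p) Y)
    (hB : ∀ x, (∀ y, B x y + B y x = 0) → x = 0) {c : ZMod p} (hc : c ≠ 0) :
    ‖∑ u, ZMod.stdAddChar (c * B u u)‖ ^ 2 = Nat.card Y := by
  classical
  suffices h : (∑ u, ZMod.stdAddChar (c * B u u)) * conj (∑ u, ZMod.stdAddChar (c * B u u)) = Nat.card Y by
    rw [Complex.mul_conj, ← Complex.sq_norm] at h
    exact_mod_cast h
  rw [map_sum, sum_mul_sum, sum_comm]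
  have h1 : ∀ w, ∑ u, ZMod.stdAddChar (c * B u u) * conj (ZMod.stdAddChar (c * B w w)) =
      ∑ x, ZMod.stdAddChar (c * B x x) * ZMod.stdAddChar (c * (B x w + B w x)) := fun w =>
    (Fintype.sum_equiv (Equiv.addRight w) _ _ fun x => by
      rw [H8.stdAddChar_conj, ← AddChar.map_add_eq_mul, ← AddChar.map_add_eq_mul]
      congr 1
      simp only [Equiv.coe_addRight, map_add, LinearMap.add_apply]; ring).symm
  simp only [h1]
  rw [sum_comm, sum_eq_single 0 (fun x _ hx => ?_) (by simp)]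
  · simp
  rw [← mul_sum]
  refine mul_eq_zero_of_right _ ?_
  let L : Y →+ ZMod p := (c • (B x + B.flip x)).toAddMonoidHom
  refine (AddChar.sum_eq_zero_iff_ne_zero (ψ := ZMod.stdAddChar.compAddMonoidHom L)).2 fun e => hx (hB x fun y => ?_)
  have h2 : ZMod.stdAddChar (c * (B x y + B y x)) = ZMod.stdAddChar (0 : ZMod p) := by
    rw [AddChar.map_zero_eq_one]; exact DFunLike.congr_fun e y
  exact (mul_eq_zero.1 (ZMod.injective_stdAddChar h2)).resolve_left hc

variable {M : Ideal AlgInt} [M.IsMaximal]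

theorem good_sym (hM : IsPModular p M) (hH : ¬ p ∣ Nat.card H) (B : LinearMap.BilinForm (ZMod p) W)
    (hB : ∀ g x y, B (ρ g x) (ρ g y) = B x y) (hnd : ∀ x, (∀ y, B x y + B y x = 0) → x = 0) :
    Good p M fun h => (Nat.card (fix ρ 1) : ℝ) / Nat.card (fix ρ h) := by
  classical
  have := charP_res hM
  have hS : ∀ g x y, (B + B.flip) (ρ g x) (ρ g y) = (B + B.flip) x y := fun g x y => by simp [hB]
  have hnd' : ∀ h, ∀ x ∈ fix ρ h, (∀ w ∈ fix ρ h, B x w + B w x = 0) → x = 0 := fun h x hx h0 =>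
    hnd x (fix_nd ρ hH hS hx h0)
  refine good_of (π := fun h => Nat.card (fix ρ h)) (fix_char ρ) (fix_dvd ρ)
    (Γ := fun x => ∑ u : fix ρ x.1, ZMod.stdAddChar (x.2.toAdd * B u u)) ?_ (fun c hc h => ?_) fun c hc h => ?_
  · have := isGen_sum univ _ fun (t : ZMod p) _ => ((perm_char ρ {u | B u u = t} fun h u hu => (hB h u u).trans hu).prod
      (isCharacter_linear (ZMod.stdAddChar.mulShift t).toMonoidHom.toHomUnits)).isGen
    convert this using 1
    funext x
    simp only [Finset.sum_apply, natCard_subtype_eq_sum, sum_mul, MonoidHom.coe_toHomUnits]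
    rw [sum_comm, ← sum_subtype (univ.filter (· ∈ fix ρ x.1)) (by simp)
      (fun u => ZMod.stdAddChar (x.2.toAdd * B u u)), sum_filter]
    refine sum_congr rfl fun u _ => ?_
    by_cases e : ρ x.1 u = u
    · simp [mem_fix, e, mul_comm]
    · simp [mem_fix, e]
  · exact gauss_norm (B.restrict (fix ρ h)) (fun x hx => Subtype.ext (hnd' h x x.2 fun w hw => hx ⟨w, hw⟩)) hc
  · let Y := LinearMap.range (ρ h - 1)
    have ho : ∀ a ∈ fix ρ h, ∀ y ∈ Y, B a y + B y a = 0 := by
      rintro a ha _ ⟨y, rfl⟩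
      have e1 := hB h a y
      have e2 := hB h y a
      rw [(mem_fix ρ).1 ha] at e1 e2
      simp [e1, e2]
    have hc : IsCompl (fix ρ h) Y := by
      refine (Submodule.isCompl_iff_disjoint _ _ ?_).2 (Submodule.disjoint_def.2 fun x hx hy =>
        hnd' h x hx fun w hw => by rw [add_comm]; exact ho w hw x hy)
      rw [add_comm]; exact (LinearMap.finrank_range_add_finrank_ker _).ge
    have hint : ∀ y : Y, IsIntegral ℤ (ZMod.stdAddChar (c.toAdd * B y y)) := fun y =>
      isIntegral_of_pow_eq_one hp.out.ne_zero (e_pow _)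
    refine ⟨∑ y : Y, ZMod.stdAddChar (c.toAdd * B y y), ?_, IsIntegral.sum _ fun y _ => hint y, fun e => ?_⟩
    · rw [sum_mul_sum, ← Fintype.sum_prod_type']
      refine Fintype.sum_equiv ((Submodule.prodEquivOfIsCompl _ _ hc).toEquiv.trans
        ((LinearEquiv.ofTop _ (fix_one ρ)).symm.toEquiv)) _ _ fun x => ?_
      rw [← AddChar.map_add_eq_mul]
      congr 1
      change _ = c.toAdd * B (x.1 + x.2) (x.1 + x.2)
      simp only [map_add, LinearMap.add_apply]
      linear_combination (-c.toAdd) * ho _ x.1.2 _ x.2.2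
    · rw [redC_sum _ fun y _ => mem_locRing_of_isIntegral (hint y)]
      have e1 : ∀ a : ZMod p, redC M (ZMod.stdAddChar a) = 1 := fun a =>
        redC_eq_one_of_pow_eq_one hM (k := 1) (by rw [pow_one, e_pow])
      simp only [e1, sum_const, card_univ, nsmul_eq_mul, mul_one]
      rw [CharP.cast_eq_zero_iff _ p, ← Nat.card_eq_fintype_card, card_pow p]
      refine dvd_pow_self _ fun e' => e ?_
      rw [Submodule.finrank_eq_zero, LinearMap.range_eq_bot] at e'
      simp only [fix, e', map_one, sub_self]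

end Cfsg.Agent.H2.KGV
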