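import Cfsg.Agent.H2.KGV2
import Cfsg.Agent.H8.Glaub4

/-! Weil characters on symplectic modules via the Heisenberg group. -/

namespace Cfsg.Agent.H2.KGV
open Cfsg Cfsg.Agent.H4 Cfsg.Agent.H5 Cfsg.Agent.H6 Finset
open scoped ComplexConjugate

theorem avg {N Γ : Type*} [Group N] [Fintype N] [Group Γ] (f : N →* Γ) {χ : Γ → ℂ} (hχ : IsCharacter Γ χ)
    (hirr : IsIrrCharacter N fun n => χ (f n)) (x y : Γ) :
    (∑ n, χ (f n * x * (f n)⁻¹ * y)) * χ 1 = Nat.card N * χ x * χ y := by
  obtain ⟨d, ρ, rfl⟩ := hχ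
  have := isIrreducible_of_isIrrCharacter (ρ.comp f) hirr
  obtain ⟨c, hc⟩ := schur_scalar (ρ.comp f) (∑ n, ρ (f n * x * (f n)⁻¹)) fun g => by
    rw [← Module.End.mul_eq_comp, ← Module.End.mul_eq_comp, sum_mul, mul_sum]
    refine (Fintype.sum_equiv (Equiv.mulLeft g) _ _ fun n => ?_).symm
    simp only [MonoidHom.comp_apply, ← map_mul, Equiv.coe_mulLeft]
    congr 1
    simp only [map_mul]; group
  have h1 := congrArg (LinearMap.trace ℂ _) hc
  have h2 := congrArg (fun T => LinearMap.trace ℂ _ (T * ρ y)) hc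
  simp only [map_sum, map_smul, sum_mul, ← map_mul, smul_mul_assoc, ← Module.End.one_eq_id, one_mul] at h1 h2
  change ∑ n, ρ.character _ = _ at h1 h2
  simp only [Representation.char_conj, sum_const, card_univ, nsmul_eq_mul, ← Nat.card_eq_fintype_card] at h1
  rw [h2, h1]
  simp only [Representation.character, map_one, smul_eq_mul]; ring

variable {p : ℕ} [hp : Fact p.Prime] {W : Type*} [AddCommGroup W] [Module (ZMod p) W]

/-- the Heisenberg group of a bilinear form -/
@[ext] structure Heis (B : LinearMap.BilinForm (ZMod p) W) where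
  u : W
  a : ZMod p

namespace Heis
variable {B : LinearMap.BilinForm (ZMod p) W}

instance : Mul (Heis B) := ⟨fun x y => ⟨x.u + y.u, x.a + y.a + B x.u y.u⟩⟩
instance : One (Heis B) := ⟨⟨0, 0⟩⟩
instance : Inv (Heis B) := ⟨fun x => ⟨-x.u, -x.a + B x.u x.u⟩⟩
@[simp] theorem mul_u (x y : Heis B) : (x * y).u = x.u + y.u := rfl
@[simp] theorem mul_a (x y : Heis B) : (x * y).a = x.a + y.a + B x.u y.u := rfl
@[simp] theorem one_u : (1 : Heis B).u = 0 := rfl
@[simp] theorem one_a : (1 : Heis B).a = 0 := rfl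
@[simp] theorem inv_u (x : Heis B) : (x⁻¹).u = -x.u := rfl
@[simp] theorem inv_a (x : Heis B) : (x⁻¹).a = -x.a + B x.u x.u := rfl

instance : Group (Heis B) := Group.ofLeftAxioms
  (fun x y z => by ext <;> simp [add_assoc]; ring) (fun x => by ext <;> simp) (fun x => by ext <;> simp)

/-- coordinates -/
def equiv (B : LinearMap.BilinForm (ZMod p) W) : Heis B ≃ W × ZMod p :=
  ⟨fun x => (x.u, x.a), fun x => ⟨x.1, x.2⟩, fun _ => rfl, fun _ => rfl⟩

noncomputable instance [Fintype W] : Fintype (Heis B) := Fintype.ofEquiv _ (equiv B).symm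

theorem card : Nat.card (Heis B) = Nat.card W * p := by
  rw [Nat.card_congr (equiv B), Nat.card_prod, Nat.card_zmod]

/-- the central subgroup -/
def z (B : LinearMap.BilinForm (ZMod p) W) : C p →* Heis B where
  toFun c := ⟨0, c.toAdd⟩
  map_one' := rfl
  map_mul' a b := by ext <;> simp

theorem exists_irr [Fintype W] (hnd : ∀ x, (∀ y, B x y = B y x) → x = 0) :
    ∃ θ, IsIrrCharacter (Heis B) θ ∧ ∀ x : Heis B, x.u ≠ 0 → θ x = 0 := by
  obtain ⟨θ, hθ, h1⟩ := exists_irr_apply_ne (G := Heis B) (g := z B (gen 1))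
    fun e => gen_ne (p := p) 1 (congrArg Heis.a e)
  refine ⟨θ, hθ, fun x hx => ?_⟩
  have h2 : (charKer θ).comap (z B) = ⊥ :=
    (Subgroup.eq_bot_or_eq_top_of_prime_card _ (hp := ⟨by simpa using hp.out⟩)).resolve_right fun e =>
      h1 (apply_of_mem_charKer (show gen 1 ∈ (charKer θ).comap (z B) from e ▸ Subgroup.mem_top _))
  obtain ⟨w, hw⟩ := not_forall.1 (mt (hnd _) hx)
  let c : C p := Multiplicative.ofAdd (B w x.u - B x.u w)
  have h3 : (⟨w, 0⟩ : Heis B) * x * (⟨w, 0⟩ : Heis B)⁻¹ = z B c * x := by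
    ext <;> simp [z, c]; ring
  have h4 := hθ.isClassFunction x ⟨w, 0⟩
  rw [h3, apply_mul_of_mem_charCenter (hθ.center_le_charCenter (Subgroup.mem_center_iff.2 fun g => by
    ext <;> simp [z, add_comm])) hθ.apply_one_ne_zero] at h4
  by_contra h0
  have h5 : c ∈ (charKer θ).comap (z B) := hθ.isCharacter.mem_charKer.2
    ((div_eq_one_iff_eq hθ.apply_one_ne_zero).1 (mul_right_cancel₀ h0 (h4.trans (one_mul _).symm)))
  rw [h2] at h5
  exact hw (sub_eq_zero.1 (show B w x.u - B x.u w = 0 from h5)).symm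

theorem sum_ite [Fintype W] (P : W → Prop) [DecidablePred P] (t : ℂ) :
    ∑ n : Heis B, (if P n.u then t else 0) = Nat.card {u // P u} * p * t := by
  refine (Fintype.sum_equiv (equiv B) _ (fun x => if P x.1 then t else 0) fun _ => rfl).trans ?_
  rw [Fintype.sum_prod_type, natCard_subtype_eq_sum (R := ℂ) P, sum_mul, sum_mul]
  refine sum_congr rfl fun u _ => ?_
  split_ifs <;> simp [*]

theorem deg [Fintype W] {θ : Heis B → ℂ} (hθ : IsIrrCharacter (Heis B) θ) (h0 : ∀ x : Heis B, x.u ≠ 0 → θ x = 0) :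
    θ 1 ^ 2 = Nat.card W := by
  classical
  have h1 := card_mul_classInner θ θ
  have h2 : ∀ n, θ n * conj (θ n) = if n.u = 0 then θ 1 ^ 2 else 0 := fun n => by
    split_ifs with e
    · have := hθ.isCharacter.mem_charCenter.1 (hθ.center_le_charCenter (x := n)
        (Subgroup.mem_center_iff.2 fun g => by ext <;> simp [e, add_comm]))
      rw [Complex.mul_conj, ← Complex.sq_norm, this, Complex.sq_norm, ← Complex.mul_conj,
        hθ.isCharacter.conj_apply_one, sq]
    · rw [h0 n e, zero_mul]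
  simp only [h2, hθ.classInner_self, card, sum_ite (fun u : W => u = 0), Nat.card_unique] at h1
  push_cast at h1
  refine mul_left_cancel₀ (Nat.cast_ne_zero.2 hp.out.ne_zero : (p : ℂ) ≠ 0) ?_
  linear_combination -h1

variable {H : Type*} [Group H] (ρ : Representation (ZMod p) H W) (hB : ∀ g x y, B (ρ g x) (ρ g y) = B x y)

/-- the induced action -/
def act : H →* MulAut (Heis B) where
  toFun h :=
    { toFun := fun x => ⟨ρ h x.u, x.a⟩
      invFun := fun x => ⟨ρ h⁻¹ x.u, x.a⟩
      left_inv := fun x => by ext <;> simp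
      right_inv := fun x => by ext <;> simp
      map_mul' := fun x y => by ext <;> simp [hB] }
  map_one' := by ext <;> simp
  map_mul' a b := by ext <;> simp

theorem act_apply (h : H) (x : Heis B) : act ρ hB h x = ⟨ρ h x.u, x.a⟩ := rfl

/-- the normal embedding into the semidirect product -/
def emb : NEmb (Heis B) (Heis B ⋊[act ρ hB] H) where
  f := SemidirectProduct.inl
  inj := SemidirectProduct.inl_injective
  act g n := g.left * act ρ hB g.right n * g.left⁻¹
  f_act g n := by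
    refine SemidirectProduct.ext ?_ (by simp)
    simp only [SemidirectProduct.left_inl, SemidirectProduct.mul_left, SemidirectProduct.inv_left,
      SemidirectProduct.mul_right, SemidirectProduct.right_inl, mul_one, map_inv, MulAut.apply_inv_self]

end Heis

variable {H : Type*} [Group H] [Fintype H] [Fintype W] (ρ : Representation (ZMod p) H W)

theorem exists_weil (hH : ¬ p ∣ Nat.card H) (B : LinearMap.BilinForm (ZMod p) W)
    (hB : ∀ g x y, B (ρ g x) (ρ g y) = B x y) (hnd : ∀ x, (∀ y, B x y = B y x) → x = 0) :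
    ∃ ω, IsCharacter H ω ∧ ∀ h, ∃ a : ℤ, ω h = a ∧ a ^ 2 = Nat.card (fix ρ h) := by
  classical
  obtain ⟨θ, hθ, h0⟩ := Heis.exists_irr hnd
  let E := Heis.emb ρ hB
  have : Finite (Heis B ⋊[Heis.act ρ hB] H) := Finite.of_equiv _ SemidirectProduct.equivProd.symm
  have hi : E.f.range.index = Nat.card H := by
    have := E.card_mul_index
    rw [SemidirectProduct.card] at this
    exact Nat.eq_of_mul_eq_mul_left Nat.card_pos this
  have hcop : (Nat.card H).Coprime (Nat.card (Heis B)) := by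
    rw [Heis.card, card_pow p W, ← pow_succ]
    exact ((Nat.Prime.coprime_iff_not_dvd hp.out).2 hH).symm.pow_right _
  obtain ⟨χ, hχ, h1, h2⟩ := E.exists_ext_of_coprime hθ (fun g n => by
    refine (hθ.isClassFunction _ _).trans ?_
    by_cases e : n.u = 0
    · congr 1; ext <;> simp [Heis.act_apply, e]
    · rw [h0 n e, h0]
      exact fun e' => e (by simpa [Heis.act_apply] using congrArg (ρ g.right⁻¹) e')) (hi ▸ hcop)
  have hirr : IsIrrCharacter _ fun n => χ (E.f n) := by simpa only [h1] using hθ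
  have hω := hχ.isCharacter.comp (SemidirectProduct.inr (φ := Heis.act ρ hB))
  have hd : χ 1 = θ 1 := by rw [← h1, map_one]
  have key : ∀ h : H, χ (.inr h) * conj (χ (.inr h)) * Nat.card W = Nat.card (fix ρ h) * θ 1 ^ 2 := fun h => by
    have e1 := avg E.f hχ.isCharacter hirr (.inr h) (.inr h⁻¹)
    have e2 : ∀ n, χ (E.f n * .inr h * (E.f n)⁻¹ * .inr h⁻¹) = if ρ h n.u = n.u then θ 1 else 0 := fun n => by
      rw [show E.f n * .inr h * (E.f n)⁻¹ * .inr h⁻¹ = E.f (n * (Heis.act ρ hB h n)⁻¹) by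
        rw [map_mul, ← map_inv, ← map_inv]
        exact (mul_assoc _ _ _).trans ((mul_assoc _ _ _).trans (congrArg _
          ((mul_assoc _ _ _).symm.trans (SemidirectProduct.inl_aut _ _).symm))), h1]
      split_ifs with e
      · congr 1; ext <;> simp [Heis.act_apply, e]
      · exact h0 _ fun e' => e (add_neg_eq_zero.1 e').symm
    have e3 : ∑ n : Heis B, (if ρ h n.u = n.u then θ 1 else 0) = Nat.card (fix ρ h) * p * θ 1 := by
      rw [Heis.sum_ite fun u => ρ h u = u, Nat.card_congr (Equiv.subtypeEquivRight fun u => (mem_fix ρ).symm)]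
    simp only [e2, e3, hd, Heis.card, hω.apply_inv] at e1
    push_cast at e1
    refine mul_left_cancel₀ (Nat.cast_ne_zero.2 hp.out.ne_zero : (p : ℂ) ≠ 0) ?_
    linear_combination -e1
  have hW : (Nat.card W : ℂ) ≠ 0 := Nat.cast_ne_zero.2 Nat.card_pos.ne'
  have h3 := Heis.deg hθ h0
  refine ⟨_, hω, fun h => ?_⟩
  obtain ⟨a, ha⟩ := exists_int_of_forall_ringEquiv (hω.isIntegral h) fun σ => by
    obtain ⟨m, hm, hσ⟩ := exists_pow_char_of_ringHom (G := H) (σ : ℂ →+* ℂ)
    obtain ⟨k, k1, k2⟩ := Nat.chineseRemainder hcop m 1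
    refine (hσ _ hω.isGen h).trans ?_
    rw [← pow_eq_pow_of_modEq k1 pow_card_eq_one', map_pow]
    exact H8.canon_pow E (hi ▸ hcop) hχ.isCharacter hirr
      (h2 ▸ (hi ▸ hcop).coprime_dvd_right (detOrder_dvd_card θ)) (by rw [hi, Nat.Coprime, k1.gcd_eq]; exact hm) k2 _
  refine ⟨a, ha, ?_⟩
  have := key h
  rw [h3, ha, map_intCast] at this
  have := mul_right_cancel₀ hW this
  rw [sq]; exact_mod_cast this

variable {M : Ideal AlgInt} [M.IsMaximal]

theorem good_alt (hM : IsPModular p M) (hH : ¬ p ∣ Nat.card H) (A : LinearMap.BilinForm (ZMod p) W)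
    (hA : ∀ g x y, A (ρ g x) (ρ g y) = A x y) (halt : ∀ x, A x x = 0) (hnd : ∀ x, (∀ y, A x y = 0) → x = 0) :
    Good p M fun h => (Nat.card (fix ρ 1) : ℝ) / Nat.card (fix ρ h) := by
  classical
  have := charP_res hM
  let b := Module.finBasis (ZMod p) W
  let B₀ := Matrix.toBilin b (Matrix.of fun i j => if i < j then A (b i) (b j) else 0)
  have h0 : B₀ - B₀.flip = A := LinearMap.BilinForm.ext_basis b fun i j => by
    have hb : ∀ i j, B₀ (b i) (b j) = if i < j then A (b i) (b j) else 0 := fun i j => by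
      rw [← LinearMap.BilinForm.toMatrix_apply, LinearMap.BilinForm.toMatrix_toBilin, Matrix.of_apply]
    simp only [LinearMap.sub_apply, LinearMap.BilinForm.flip_apply, hb]
    rcases lt_trichotomy i j with e | rfl | e
    · simp [e, e.not_gt]
    · simp [halt]
    · simp [e, e.not_gt, LinearMap.IsAlt.neg halt]
  let B : LinearMap.BilinForm (ZMod p) W := ∑ g, B₀.comp (ρ g) (ρ g)
  have hB : ∀ x y, B x y = ∑ g, B₀ (ρ g x) (ρ g y) := fun x y => by simp [B, LinearMap.sum_apply]
  obtain ⟨ω, hω, h1⟩ := exists_weil ρ hH B (fun g x y => by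
    rw [hB, hB]
    exact Fintype.sum_equiv (Equiv.mulRight g) _ _ fun k => by simp) fun x hx => hnd x fun y => by
      have e1 := sub_eq_zero.2 (hx y)
      have e2 : ∀ g, B₀ (ρ g x) (ρ g y) - B₀ (ρ g y) (ρ g x) = A x y := fun g => by
        rw [← hA g, ← h0]; rfl
      simp only [hB, ← sum_sub_distrib, e2, sum_const, card_univ, nsmul_eq_mul] at e1
      exact (mul_eq_zero.1 e1).resolve_left fun e => hH (by
        rwa [ZMod.natCast_eq_zero_iff, ← Nat.card_eq_fintype_card] at e)
  refine good_of (π := fun h => Nat.card (fix ρ h)) (fix_char ρ) (fix_dvd ρ)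
    (hω.isGen.comp (MonoidHom.fst _ _)) (fun c _ h => ?_) fun c _ h => ?_
  · obtain ⟨a, e1, e2⟩ := h1 h
    change ‖ω h‖ ^ 2 = _
    rw [e1, Complex.norm_intCast, sq_abs]; exact_mod_cast e2
  · obtain ⟨a, e1, e2⟩ := h1 h
    obtain ⟨a', e3, e4⟩ := h1 1
    have e5 := fix_dvd ρ h
    rw [← card_pow, ← card_fix_one ρ, ← Int.natCast_dvd_natCast, ← e2, ← e4, Int.pow_dvd_pow_iff two_ne_zero] at e5
    obtain ⟨k, rfl⟩ := e5
    refine ⟨k, by change ω h * k = ω 1; rw [e1, e3]; simp, isIntegral_algebraMap (x := k), fun e => ?_⟩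
    rw [redC_intCast, CharP.intCast_eq_zero_iff _ p]
    have e6 : k.natAbs ^ 2 * Nat.card (fix ρ h) = Nat.card (fix ρ 1) := by
      zify; rw [← e2, ← e4, sq_abs]; ring
    obtain ⟨i, -, hi⟩ := (Nat.dvd_prime_pow hp.out).1 ((Dvd.intro _ e6).trans (fix_dvd ρ 1))
    refine Int.natCast_dvd.2 (hp.out.dvd_of_dvd_pow (n := 2) (hi ▸ dvd_pow_self p fun e' => e ?_))
    rw [← e6, hi, e']; simp

end Cfsg.Agent.H2.KGV
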