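import Cfsg.Agent.H2.KGV3
import Cfsg.Agent.S4966

/-! The real-vector criterion. -/

namespace Cfsg.Agent.H2.KGV
open Cfsg Cfsg.Agent.H4 Cfsg.Agent.H5 Cfsg.Agent.H6 Finset Subgroup
open scoped ComplexConjugate

variable {p : ℕ} [hp : Fact p.Prime] {M : Ideal AlgInt} [M.IsMaximal]

theorem good_dual {H : Type*} [Group H] [Fintype H] {W : Type*} [AddCommGroup W] [Module (ZMod p) W] [Finite W]
    (ρ : Representation (ZMod p) H W) (hM : IsPModular p M) (hH : ¬ p ∣ Nat.card H)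
    (B : LinearMap.BilinForm (ZMod p) W) (hB : ∀ g x y, B (ρ g x) (ρ g y) = B x y)
    (hnd : ∀ x, (∀ y, B x y = 0) → x = 0) :
    ∃ r : H → ℝ, Good p M r ∧ ∀ h, 0 ≤ r h ∧ r h * Nat.card (fix ρ h) ≤ Nat.card W ∧ (r h = 1 → ∀ u, ρ h u = u) := by
  classical
  obtain ⟨U₁, U₂, hc, i1, i2, ⟨A, a1, a2, a3⟩, ⟨S, s1, s2, s3⟩, h2⟩ :=
    S4966.result p hH ρ B (.ofSeparatingLeft hnd) hB
  let ρ₁ := ρ.subrepresentation U₁ i1
  let ρ₂ := ρ.subrepresentation U₂ i2
  have := Fintype.ofFinite U₁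
  have := Fintype.ofFinite U₂
  have g1 := good_alt ρ₁ hM hH (A.restrict U₁) (fun g x y => a2 g x x.2 y y.2) (fun x => a1 x)
    fun x hx => Subtype.ext (a3 x x.2 fun y hy => hx ⟨y, hy⟩)
  have g2 : Good p M fun h => (Nat.card (fix ρ₂ 1) : ℝ) / Nat.card (fix ρ₂ h) := by
    by_cases e : p = 2
    · convert Good.one (p := p) (M := M) (H := H) using 2 with h
      rw [fix_one, show fix ρ₂ h = ⊤ from eq_top_iff.2 fun u _ => (mem_fix _).2 (Subtype.ext (h2 e h u u.2))]
      exact div_self (Nat.cast_ne_zero.2 Nat.card_pos.ne')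
    · refine good_sym ρ₂ hM hH (S.restrict U₂) (fun g x y => s2 g x x.2 y y.2)
        fun x hx => Subtype.ext (s3 x x.2 fun y hy => ?_)
      have h3 : S x y + S y x = 0 := hx ⟨y, hy⟩
      rw [s1 y, ← two_mul] at h3
      refine (mul_eq_zero.1 h3).resolve_left fun e' => e ?_
      exact (Nat.prime_dvd_prime_iff_eq hp.out Nat.prime_two).1 ((ZMod.natCast_eq_zero_iff 2 p).1 e')
  refine ⟨_, g1.mul g2, fun h => ⟨by positivity, ?_, fun e u => ?_⟩⟩
  · have h3 : Nat.card (fix ρ h) ≤ Nat.card (fix ρ₁ h) * Nat.card (fix ρ₂ h) := by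
      rw [← Nat.card_prod]
      refine Nat.card_le_card_of_surjective (fun x => ⟨x.1.1 + x.2.1, (mem_fix _).2 (by
        rw [map_add]
        exact congrArg₂ _ (congrArg Subtype.val ((mem_fix _).1 x.1.2))
          (congrArg Subtype.val ((mem_fix _).1 x.2.2)))⟩) fun w => ?_
      obtain ⟨a, b, e, -⟩ := Submodule.existsUnique_add_of_isCompl hc w.1
      have e1 : ρ h a - a = -(ρ h b - b) := by
        have := (mem_fix _).1 w.2
        rw [← e, map_add] at this
        linear_combination (norm := module) this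
      have e2 : ρ h a - a = 0 := Submodule.disjoint_def.1 hc.disjoint _ (sub_mem (i1 h _ a.2) a.2)
        (e1 ▸ neg_mem (sub_mem (i2 h _ b.2) b.2))
      exact ⟨⟨⟨a, (mem_fix _).2 (Subtype.ext (sub_eq_zero.1 e2))⟩,
        ⟨b, (mem_fix _).2 (Subtype.ext (sub_eq_zero.1 (neg_eq_zero.1 (e1 ▸ e2))))⟩⟩, Subtype.ext e⟩
    have h4 : Nat.card U₁ * Nat.card U₂ = Nat.card W := by
      rw [← Nat.card_prod, Nat.card_congr (Submodule.prodEquivOfIsCompl _ _ hc).toEquiv]
    have h5 : (0 : ℝ) < Nat.card (fix ρ₁ h) := by exact_mod_cast Nat.card_pos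
    have h6 : (0 : ℝ) < Nat.card (fix ρ₂ h) := by exact_mod_cast Nat.card_pos
    rw [card_fix_one, card_fix_one, div_mul_div_comm, div_mul_eq_mul_div, div_le_iff₀ (by positivity)]
    rw [← h4]
    exact_mod_cast Nat.mul_le_mul_left _ h3
  · have k : ∀ {Y : Type _} [AddCommGroup Y] [Module (ZMod p) Y] [Finite Y] (σ : Representation (ZMod p) H Y),
        1 ≤ (Nat.card (fix σ 1) : ℝ) / Nat.card (fix σ h) ∧
          ((Nat.card (fix σ 1) : ℝ) / Nat.card (fix σ h) = 1 → ∀ u, σ h u = u) := fun {Y} _ _ _ σ => by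
      have h5 : (0 : ℝ) < Nat.card (fix σ h) := by exact_mod_cast Nat.card_pos
      rw [card_fix_one, one_le_div h5, div_eq_one_iff_eq h5.ne']
      refine ⟨by exact_mod_cast Nat.card_le_card_of_injective _ Subtype.val_injective, fun e u => (mem_fix σ).1 ?_⟩
      have : (fix σ h).toAddSubgroup = ⊤ := (AddSubgroup.card_eq_iff_eq_top _).1 (by exact_mod_cast e.symm)
      exact (show u ∈ (fix σ h).toAddSubgroup from this ▸ AddSubgroup.mem_top u)
    obtain ⟨b1, b2⟩ := k ρ₁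
    obtain ⟨b3, b4⟩ := k ρ₂
    obtain ⟨a, b, rfl, -⟩ := Submodule.existsUnique_add_of_isCompl hc u
    rw [map_add]
    exact congrArg₂ _ (congrArg Subtype.val (b2 (by nlinarith) a)) (congrArg Subtype.val (b4 (by nlinarith) b))

theorem good_grp {H : Type*} [Group H] [Fintype H] {W : Type*} [CommGroup W] [Finite W] (hW : ∀ x : W, x ^ p = 1)
    (α : H → W → W) (a0 : ∀ h a b, α h (a * b) = α h a * α h b) (a1 : ∀ x, α 1 x = x)
    (a2 : ∀ a b x, α (a * b) x = α a (α b x)) (hM : IsPModular p M) (hH : ¬ p ∣ Nat.card H)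
    (β : W → W → ZMod p) (b1 : ∀ a b w, β (a * b) w = β a w + β b w) (b2 : ∀ u a b, β u (a * b) = β u a + β u b)
    (hB : ∀ g x y, β (α g x) (α g y) = β x y) (hnd : ∀ x, (∀ y, β x y = 0) → x = 1) :
    ∃ r : H → ℝ, Good p M r ∧ ∀ h, r h * Nat.card {u // α h u = u} ≤ Nat.card W ∧ (r h = 1 → ∀ u, α h u = u) := by
  obtain ⟨_⟩ : Nonempty (Module (ZMod p) (Additive W)) := ⟨AddCommGroup.zmodModule fun x => hW x.toMul⟩
  let ρ : Representation (ZMod p) H (Additive W) :=
    { toFun := fun h => (AddMonoidHom.mk' (fun u : Additive W => Additive.ofMul (α h u.toMul))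
        fun a b => a0 h _ _).toZModLinearMap p
      map_one' := LinearMap.ext fun u => a1 _
      map_mul' := fun a b => LinearMap.ext fun u => a2 _ _ _ }
  let B : LinearMap.BilinForm (ZMod p) (Additive W) := LinearMap.mk₂ (ZMod p) (fun u w => β u.toMul w.toMul)
    (fun a b w => b1 _ _ _)
    (fun c a w => ZMod.map_smul (AddMonoidHom.mk' (fun u : Additive W => β u.toMul w.toMul) fun a b => b1 _ _ _) c a)
    (fun u a b => b2 _ _ _)
    (fun c u a => ZMod.map_smul (AddMonoidHom.mk' (fun w : Additive W => β u.toMul w.toMul) fun a b => b2 _ _ _) c a)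
  obtain ⟨r, hr, h1⟩ := good_dual ρ hM hH B (fun g x y => hB g _ _) fun x hx => hnd _ hx
  refine ⟨r, hr, fun h => ⟨?_, (h1 h).2.2⟩⟩
  rw [← Nat.card_congr (Equiv.subtypeEquiv Additive.toMul fun u => mem_fix ρ : fix ρ h ≃ {u // α h u = u})]
  exact (h1 h).2.1

omit hp in
theorem cent_le {X : Type*} [Group X] [Finite X] {V G : Subgroup X} [hn : V.Normal]
    (hV : ∀ a ∈ V, ∀ b ∈ V, a * b = b * a) (hGV : IsComplement' V G) (hN : p.Coprime (Nat.card G)) {v w : X}
    (hv : v ∈ V) (hw : w ^ p = 1) (hvw : v ∈ zpowers w) (h : ↥(G ⊓ centralizer {v})) (hc : Commute h.1 w) :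
    Nat.card (centralizer {h.1 * w}) ≤ Nat.card ↥(V ⊓ centralizer {h.1}) * Nat.card (centralizer {h}) := by
  obtain ⟨k, hk⟩ := exists_pow_eq_self_of_coprime (x := w) (hN.symm.coprime_dvd_right (orderOf_dvd_of_pow_eq_one hw))
  have b2 : ∀ x ∈ centralizer {h.1 * w}, ∃ y : ↥(V ⊓ centralizer {h.1}) × centralizer {h}, x = y.1.1 * y.2.1.1 :=
    fun x hx => by
      have e1 : Commute x (h.1 * w) := mem_centralizer_singleton_iff.1 hx
      have e2 : Commute x w := by
        have := (e1.pow_right (Nat.card G)).pow_right k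
        rwa [hc.mul_pow, show h.1 ^ Nat.card G = 1 from
          congrArg Subtype.val (pow_card_eq_one' (x := (⟨h.1, h.2.1⟩ : G))), one_mul, hk] at this
      have e3 : Commute x h.1 := by simpa using e1.mul_right e2.inv_right
      have e4 : Commute x v := by obtain ⟨i, hi⟩ := hvw; exact hi ▸ e2.zpow_right i
      obtain ⟨⟨y, g⟩, rfl⟩ := hGV.2 x
      have e5 : Commute g.1 v := by simpa using (show Commute y.1 v from hV _ y.2 _ hv).inv_left.mul_left e4
      have e6 := hGV.1 (a₁ := (y, ⟨g.1 * h.1, mul_mem g.2 h.2.1⟩))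
        (a₂ := (⟨h.1 * y * h.1⁻¹, hn.conj_mem _ y.2 _⟩, ⟨h.1 * g.1, mul_mem h.2.1 g.2⟩))
        (by simpa [mul_assoc] using e3.eq)
      exact ⟨⟨⟨y, y.2, mem_centralizer_singleton_iff.2 (eq_mul_inv_iff_mul_eq.1 (congrArg (·.1.1) e6))⟩,
        ⟨⟨g, g.2, mem_centralizer_singleton_iff.2 e5⟩, mem_centralizer_singleton_iff.2
          (Subtype.ext (congrArg (·.2.1) e6))⟩⟩, rfl⟩
  choose g hg using b2
  rw [← Nat.card_prod]
  exact Nat.card_le_card_of_injective (fun x : centralizer {h.1 * w} => g x.1 x.2) fun x y e =>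
    Subtype.ext (by rw [hg x.1 x.2, hg y.1 y.2, show g x.1 x.2 = g y.1 y.2 from e])

theorem count {X : Type*} [Group X] [Fintype X] {V G : Subgroup X} [V.Normal] (hM : IsPModular p M)
    (hV : ∀ a ∈ V, ∀ b ∈ V, a * b = b * a) (hGV : IsComplement' V G) (hidx : ¬ p ∣ V.index) {v : X}
    (hv : v ∈ V) (hvp : v ^ p = 1) {r : ↥(G ⊓ centralizer {v}) → ℝ} (hr : Good p M r)
    (h1 : ∀ h, r h * Nat.card ↥(V ⊓ centralizer {h.1}) ≤ Nat.card V) (h2 : ∀ h, r h = 1 → h = 1) :
    Nat.card (ConjClasses X) ≤ Nat.card V := by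
  classical
  have := charP_res hM
  set H := G ⊓ centralizer {v}
  have hN : p.Coprime (Nat.card G) := hp.out.coprime_iff_not_dvd.2 (hGV.symm.index_eq_card ▸ hidx)
  have hH : ¬ p ∣ Nat.card H := fun e => hp.out.coprime_iff_not_dvd.1 hN (e.trans (card_dvd_of_le inf_le_left))
  let g : C p →* X :=
    { toFun := fun c => v ^ c.toAdd.val
      map_one' := by simp
      map_mul' := fun a b => by rw [toAdd_mul, ZMod.val_add, ← pow_eq_pow_mod _ hvp, pow_add] }
  have c1 : ∀ (h : H) (c : C p), Commute (H.subtype h) (g c) := fun h c =>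
    (show Commute h.1 v from mem_centralizer_singleton_iff.1 h.2.2).pow_right _
  let f : H × C p →* X := H.subtype.noncommCoprod g c1
  obtain ⟨m, Θ, hΘ, hr⟩ := hr
  choose ψ a1 a2 a3 a4 a5 using fun (u : (ZMod p)ˣ) => hr _ (gen_ne u)
  have d1 : ∀ χ : IrrCharacter X, (Fintype.card (ZMod p)ˣ : ℝ) * Nat.card (ConjClasses H) * Nat.card H ≤
      ∑ u, ∑ h, ‖ψ u h * χ.1 (f (h, gen u))‖ ^ 2 := fun χ => by
    have hi := χ.2.isCharacter.isIntegral
    refine low hM hH (hΘ.mul (χ.2.isCharacter.comp f).isGen) m _ (fun u h => by rw [Pi.mul_apply, a1, mul_assoc])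
      (fun u h => (a2 u h).mul (hi _)) ?_ fun h hh => ?_
    · obtain ⟨d, -, hd⟩ := χ.2.exists_degree
      have e1 := H8.redC_char_pow hM χ.2.isCharacter (f (1, gen 1)) 1
      rw [pow_one, ← map_pow, Prod.pow_mk, one_pow, pow_p, Prod.mk_one_one, map_one, hd, redC_natCast] at e1
      rw [a5 1 1 rfl, one_mul]
      intro e
      rw [e, zero_pow hp.out.ne_zero, CharP.cast_eq_zero_iff _ p] at e1
      exact hidx (e1.trans (H8.cd_dvd_index_of_comm hV (H8.mem_cd_of χ.2 hd)))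
    · rw [redC_mul (mem_locRing_of_isIntegral (a2 1 h)) (mem_locRing_of_isIntegral (hi _)),
        a4 1 h (mt (h2 h) hh), zero_mul]
  have d2 : ∀ u h, ∑ χ : IrrCharacter X, ‖ψ u h * χ.1 (f (h, gen u))‖ ^ 2 ≤
      Nat.card V * Nat.card (centralizer {h}) := fun u h => by
    simp only [norm_mul, mul_pow, ← mul_sum, sum_irr_norm_sq, a3]
    have e1 := cent_le hV hGV hN hv (w := g (gen u)) (by rw [← map_pow, pow_p, map_one])
      (mem_zpowers_iff.2 ⟨((u⁻¹ : (ZMod p)ˣ) : ZMod p).val, by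
        have : gen u ^ ((u⁻¹ : (ZMod p)ˣ) : ZMod p).val = gen 1 := by
          rw [gen, ← ofAdd_nsmul, nsmul_eq_mul, ZMod.natCast_zmod_val, Units.inv_mul]; rfl
        rw [zpow_natCast, ← map_pow, this]
        change v ^ (1 : ZMod p).val = v
        rw [ZMod.val_one, pow_one]⟩) h (c1 h _)
    have e2 : (Nat.card (centralizer {f (h, gen u)}) : ℝ) ≤
        Nat.card ↥(V ⊓ centralizer {h.1}) * Nat.card (centralizer {h}) := by exact_mod_cast e1
    refine (mul_le_mul_of_nonneg_left e2 (a3 u h ▸ sq_nonneg _)).trans ?_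
    rw [← mul_assoc]
    exact mul_le_mul_of_nonneg_right (h1 h) (Nat.cast_nonneg _)
  have d3 := card_nsmul_le_sum univ _ _ fun χ _ => d1 χ
  rw [sum_comm] at d3
  replace d3 := d3.trans (sum_le_sum fun u _ => sum_comm.trans_le (sum_le_sum fun h _ => d2 u h))
  have := Fintype.ofFinite (ConjClasses H)
  have d4 := sum_mul_card_centralizer (G := H) (R := ℝ) fun _ => 1
  simp only [one_mul, sum_const, card_univ, nsmul_eq_mul, mul_one, ← Nat.card_eq_fintype_card] at d4
  have d5 : ∑ h : H, (Nat.card V : ℝ) * Nat.card (centralizer {h}) =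
      Nat.card V * (Nat.card H * Nat.card (ConjClasses H)) := by
    rw [← mul_sum, ← d4]
  erw [d5] at d3
  simp only [sum_const, card_univ, nsmul_eq_mul, ← Nat.card_eq_fintype_card,
    card_irr_eq_card_conjClasses] at d3
  have : (0 : ℝ) < Nat.card (ZMod p)ˣ * Nat.card (ConjClasses H) * Nat.card H := by
    exact_mod_cast Nat.mul_pos (Nat.mul_pos Nat.card_pos Nat.card_pos) Nat.card_pos
  have d6 : (Nat.card (ConjClasses X) : ℝ) ≤ Nat.card V := le_of_mul_le_mul_right (d3.trans_eq (by ring)) this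
  exact_mod_cast d6

end Cfsg.Agent.H2.KGV
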