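import Mathlib

/-! Checking regularity of explicit subgroups of `GL(2, p)` on non-zero vectors. -/

namespace Cfsg.Agent.H2.Pm
open Matrix

abbrev M4 (p : ℕ) := ZMod p × ZMod p × ZMod p × ZMod p

variable {p : ℕ}

def M4.mul (x y : M4 p) : M4 p :=
  (x.1 * y.1 + x.2.1 * y.2.2.1, x.1 * y.2.1 + x.2.1 * y.2.2.2,
    x.2.2.1 * y.1 + x.2.2.2 * y.2.2.1, x.2.2.1 * y.2.1 + x.2.2.2 * y.2.2.2)

def toM4 (g : GL (Fin 2) (ZMod p)) : M4 p := (g 0 0, g 0 1, g 1 0, g 1 1)

theorem toM4_mul (g h : GL (Fin 2) (ZMod p)) : toM4 (g * h) = (toM4 g).mul (toM4 h) := by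
  simp [toM4, M4.mul, Matrix.mul_apply, Fin.sum_univ_two]

theorem toM4_one : toM4 (1 : GL (Fin 2) (ZMod p)) = (1, 0, 0, 1) := by simp [toM4]

theorem toM4_injective : Function.Injective (toM4 (p := p)) := by
  intro g h e
  simp only [toM4, Prod.mk.injEq] at e
  ext i j
  fin_cases i <;> fin_cases j <;> simp [e]

theorem toM4_eq {g : GL (Fin 2) (ZMod p)} {a b c d : ZMod p}
    (h : (g : Matrix (Fin 2) (Fin 2) (ZMod p)) = !![a, b; c, d]) : toM4 g = (a, b, c, d) := by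
  simp [toM4, h]

theorem mem_of_closed [NeZero p] (S : Set (GL (Fin 2) (ZMod p))) (T : M4 p → Prop)
    (h1 : T (1, 0, 0, 1)) (hS : ∀ s ∈ S, ∀ m, T m → T (m.mul (toM4 s))) :
    ∀ h ∈ Subgroup.closure S, T (toM4 h) := by
  intro h hh
  have hpow : ∀ s ∈ S, ∀ (n : ℕ) g, T (toM4 g) → T (toM4 (g * s ^ n)) := by
    intro s hs n
    induction n with
    | zero => simp
    | succ n ih =>
      intro g hg
      rw [pow_succ, ← mul_assoc, toM4_mul]
      exact hS s hs _ (ih g hg)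
  induction hh using Subgroup.closure_induction_right with
  | one => rwa [toM4_one]
  | mul_right x _ y hy ih => rw [toM4_mul]; exact hS y hy _ ih
  | mul_inv_cancel x _ y hy ih =>
    have : y⁻¹ = y ^ (orderOf y - 1) := by
      rw [inv_eq_iff_mul_eq_one, ← pow_succ', Nat.sub_add_cancel (orderOf_pos y), pow_orderOf_eq_one]
    rw [this]; exact hpow y hy _ x ih

def evW (a b c : M4 p) : List ℕ → M4 p
  | [] => (1, 0, 0, 1)
  | 0 :: w => a.mul (evW a b c w)
  | 1 :: w => b.mul (evW a b c w)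
  | _ :: w => c.mul (evW a b c w)

theorem exists_evW (H : Subgroup (GL (Fin 2) (ZMod p))) {A B C : GL (Fin 2) (ZMod p)} (hA : A ∈ H)
    (hB : B ∈ H) (hC : C ∈ H) (w : List ℕ) :
    ∃ h ∈ H, toM4 h = evW (toM4 A) (toM4 B) (toM4 C) w := by
  induction w with
  | nil => exact ⟨1, H.one_mem, toM4_one⟩
  | cons i w ih =>
    obtain ⟨h, hh, e⟩ := ih
    rcases i with _ | _ | i
    · exact ⟨A * h, H.mul_mem hA hh, by rw [toM4_mul, e]; rfl⟩
    · exact ⟨B * h, H.mul_mem hB hh, by rw [toM4_mul, e]; rfl⟩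
    · exact ⟨C * h, H.mul_mem hC hh, by rw [toM4_mul, e]; rfl⟩

theorem regular_of_checks [Fact p.Prime] (H : Subgroup (GL (Fin 2) (ZMod p)))
    (htr : ∀ x y : ZMod p, ¬ (x = 0 ∧ y = 0) → ∃ h ∈ H, (toM4 h).1 = x ∧ (toM4 h).2.2.1 = y)
    (hst : ∀ h ∈ H, (toM4 h).1 = 1 → (toM4 h).2.2.1 = 0 → toM4 h = (1, 0, 0, 1)) :
    Nat.card H = p ^ 2 - 1 ∧ ∀ v w : Fin 2 → ZMod p, v ≠ 0 → w ≠ 0 →
      ∃! h : H, ((h : GL (Fin 2) (ZMod p)) : Matrix (Fin 2) (Fin 2) (ZMod p)) *ᵥ v = w := by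
  classical
  set v₀ : Fin 2 → ZMod p := ![1, 0] with hv₀
  have h1 : ∀ v : Fin 2 → ZMod p, v ≠ 0 → ∃ h : H, h • v₀ = v := by
    intro v hv
    obtain ⟨h, hh, e1, e2⟩ := htr (v 0) (v 1) (fun h => hv (by
      ext i; fin_cases i; exacts [h.1, h.2]))
    refine ⟨⟨h, hh⟩, ?_⟩
    change (h : Matrix (Fin 2) (Fin 2) (ZMod p)) *ᵥ v₀ = v
    ext i; fin_cases i
    · simpa [hv₀, Matrix.mulVec, dotProduct, toM4] using e1
    · simpa [hv₀, Matrix.mulVec, dotProduct, toM4] using e2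
  have h2 : ∀ h k : H, h • v₀ = k • v₀ → h = k := by
    intro h k e
    have h3 : (k⁻¹ * h) • v₀ = v₀ := by rw [mul_smul, e, inv_smul_smul]
    have h4 : (((k⁻¹ * h : H) : GL (Fin 2) (ZMod p)) : Matrix (Fin 2) (Fin 2) (ZMod p)) *ᵥ v₀ = v₀ :=
      h3
    generalize hm : k⁻¹ * h = m at h4
    have h5 := hst m m.2 (by simpa [hv₀, Matrix.mulVec, dotProduct, toM4] using congrFun h4 0)
      (by simpa [hv₀, Matrix.mulVec, dotProduct, toM4] using congrFun h4 1)
    have h6 : m = 1 := Subtype.ext (toM4_injective (h5.trans toM4_one.symm))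
    rw [h6, inv_mul_eq_one] at hm
    exact hm.symm
  have hv0 : v₀ ≠ 0 := fun e => by simpa [hv₀] using congrFun e 0
  constructor
  · rw [Nat.card_eq_of_bijective (fun h : H => (⟨h • v₀, (smul_ne_zero_iff_ne h).2 hv0⟩ :
      {v : Fin 2 → ZMod p // v ≠ 0})) ⟨fun h k e => h2 h k (congrArg Subtype.val e),
        fun v => let ⟨h, e⟩ := h1 v.1 v.2; ⟨h, Subtype.ext e⟩⟩]
    rw [Nat.card_eq_fintype_card, Fintype.card_subtype_compl]
    simp
  · intro v w hv hw
    obtain ⟨a, rfl⟩ := h1 v hv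
    obtain ⟨b, rfl⟩ := h1 w hw
    refine ⟨b * a⁻¹, ?_, fun h e => ?_⟩
    · change (b * a⁻¹) • a • v₀ = b • v₀
      rw [mul_smul, inv_smul_smul]
    · have e' : h • a • v₀ = b • v₀ := e
      rw [← mul_smul] at e'
      rw [← h2 _ _ e', mul_inv_cancel_right]

abbrev N4 := ℕ × ℕ × ℕ × ℕ

def mulN (p : ℕ) (x y : N4) : N4 :=
  ((x.1 * y.1 + x.2.1 * y.2.2.1) % p, (x.1 * y.2.1 + x.2.1 * y.2.2.2) % p,
    (x.2.2.1 * y.1 + x.2.2.2 * y.2.2.1) % p, (x.2.2.1 * y.2.1 + x.2.2.2 * y.2.2.2) % p)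

def castN (p : ℕ) (x : N4) : M4 p := (x.1, x.2.1, x.2.2.1, x.2.2.2)

theorem castN_mul (x y : N4) : castN p (mulN p x y) = (castN p x).mul (castN p y) := by
  simp [castN, mulN, M4.mul]

def eqN (x y : N4) : Bool :=
  Nat.beq x.1 y.1 && Nat.beq x.2.1 y.2.1 && Nat.beq x.2.2.1 y.2.2.1 && Nat.beq x.2.2.2 y.2.2.2

theorem eq_of_eqN {x y : N4} (h : eqN x y = true) : x = y := by
  simp only [eqN, Bool.and_eq_true, Nat.beq_eq] at h
  exact Prod.ext h.1.1.1 (Prod.ext h.1.1.2 (Prod.ext h.1.2 h.2))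

def evN (p : ℕ) (a b c : N4) : List ℕ → N4
  | [] => (1, 0, 0, 1)
  | 0 :: w => mulN p a (evN p a b c w)
  | 1 :: w => mulN p b (evN p a b c w)
  | _ :: w => mulN p c (evN p a b c w)

theorem castN_evN (a b c : N4) (w : List ℕ) :
    castN p (evN p a b c w) = evW (castN p a) (castN p b) (castN p c) w := by
  induction w with
  | nil => simp [castN, evN, evW]
  | cons i w ih => rcases i with _ | _ | i <;> simp [evN, evW, castN_mul, ih]

def chkW (p : ℕ) (a b c : N4) : List (List ℕ) → List N4 → Bool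
  | _, [] => true
  | [], _ :: _ => false
  | w :: W, m :: L => eqN (evN p a b c w) m && chkW p a b c W L

theorem of_chkW {a b c : N4} : ∀ {W : List (List ℕ)} {L : List N4}, chkW p a b c W L = true →
    ∀ m ∈ L, ∃ w, evN p a b c w = m
  | _, [], _ => by simp
  | [], _ :: _, h => by simp [chkW] at h
  | w :: W, m :: L, h => by
    simp only [chkW, Bool.and_eq_true] at h
    intro x hx
    rcases List.mem_cons.1 hx with rfl | hx
    · exact ⟨w, eq_of_eqN h.1⟩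
    · exact of_chkW h.2 x hx

theorem exists_of_chkW (H : Subgroup (GL (Fin 2) (ZMod p))) {A B C : GL (Fin 2) (ZMod p)}
    (hA : A ∈ H) (hB : B ∈ H) (hC : C ∈ H) {a b c : N4} (ha : toM4 A = castN p a)
    (hb : toM4 B = castN p b) (hc : toM4 C = castN p c) {W : List (List ℕ)} {L : List N4}
    (h : chkW p a b c W L = true) : ∀ m ∈ L, ∃ h ∈ H, toM4 h = castN p m := by
  intro m hm
  obtain ⟨w, rfl⟩ := of_chkW h m hm
  rw [castN_evN, ← ha, ← hb, ← hc]
  exact exists_evW H hA hB hC w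

def chkCl (p : ℕ) (L : List N4) (a : N4) : Bool := L.all fun m => L.any (eqN (mulN p m a))

theorem of_chkCl {L : List N4} {a : N4} (h : chkCl p L a = true) : ∀ m ∈ L, mulN p m a ∈ L := by
  intro m hm
  simp only [chkCl, List.all_eq_true, List.any_eq_true] at h
  obtain ⟨x, hx, e⟩ := h m hm
  rwa [eq_of_eqN e]

def chkAll2 (p : ℕ) (f : ℕ → ℕ → Bool) : Bool :=
  (List.range p).all fun x => (List.range p).all fun y => f x y

theorem of_chkAll2 [NeZero p] {f : ℕ → ℕ → Bool} (h : chkAll2 p f = true) (x y : ZMod p) :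
    f x.val y.val = true := by
  simp only [chkAll2, List.all_eq_true, List.mem_range] at h
  exact h _ (ZMod.val_lt x) _ (ZMod.val_lt y)

theorem regular_of_list [Fact p.Prime] {A B C : GL (Fin 2) (ZMod p)} (S : Set (GL (Fin 2) (ZMod p)))
    (hA : A ∈ S) (hB : B ∈ S) (hC : C ∈ S) (hS : ∀ s ∈ S, s = A ∨ s = B ∨ s = C)
    {a b c : N4} (ha : toM4 A = castN p a)
    (hb : toM4 B = castN p b) (hc : toM4 C = castN p c) {W : List (List ℕ)} {L : List N4}
    (h1 : chkW p a b c W L = true) (h2 : (chkCl p L a && chkCl p L b && chkCl p L c) = true)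
    (h3 : chkAll2 p (fun x y => (Nat.beq x 0 && Nat.beq y 0) ||
      L.any fun m => Nat.beq m.1 x && Nat.beq m.2.2.1 y) = true)
    (h4 : (L.all fun m => !(Nat.beq (m.1 % p) 1 && Nat.beq (m.2.2.1 % p) 0) ||
      eqN m (1, 0, 0, 1)) = true) (h5 : L.any (eqN (1, 0, 0, 1)) = true) :
    Nat.card (Subgroup.closure S) = p ^ 2 - 1 ∧ ∀ v w : Fin 2 → ZMod p, v ≠ 0 → w ≠ 0 →
      ∃! h : Subgroup.closure S,
        ((h : GL (Fin 2) (ZMod p)) : Matrix (Fin 2) (Fin 2) (ZMod p)) *ᵥ v = w := by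
  have hp : p.Prime := Fact.out
  refine regular_of_checks _ (fun x y h => ?_) fun h hh e1 e2 => ?_
  · have := of_chkAll2 h3 x y
    simp only [Bool.or_eq_true, Bool.and_eq_true, Nat.beq_eq, ZMod.val_eq_zero,
      List.any_eq_true] at this
    obtain ⟨m, hm, e1, e2⟩ := this.resolve_left h
    obtain ⟨g, hg, e⟩ := exists_of_chkW _ (Subgroup.subset_closure hA) (Subgroup.subset_closure hB)
      (Subgroup.subset_closure hC) ha hb hc h1 m hm
    exact ⟨g, hg, by simp [e, castN, e1, e2]⟩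
  · simp only [Bool.and_eq_true] at h2
    obtain ⟨m, hm, e⟩ := mem_of_closed S (fun m => ∃ l ∈ L, m = castN p l) (by
      obtain ⟨x, hx, e⟩ := List.any_eq_true.1 h5
      exact ⟨x, hx, by rw [← eq_of_eqN e]; simp [castN]⟩) (by
      rintro s hs m ⟨l, hl, rfl⟩
      rcases hS s hs with rfl | rfl | rfl
      · exact ⟨_, of_chkCl h2.1.1 l hl, by rw [ha, castN_mul]⟩
      · exact ⟨_, of_chkCl h2.1.2 l hl, by rw [hb, castN_mul]⟩
      · exact ⟨_, of_chkCl h2.2 l hl, by rw [hc, castN_mul]⟩) h hh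
    rw [e] at e1 e2 ⊢
    have := List.all_eq_true.1 h4 m hm
    have f1 : m.1 % p = 1 := by
      have := (ZMod.natCast_eq_natCast_iff' m.1 1 p).1 (by simpa [castN] using e1)
      rwa [Nat.mod_eq_of_lt hp.one_lt] at this
    have f2 : m.2.2.1 % p = 0 := by
      have := (ZMod.natCast_eq_natCast_iff' m.2.2.1 0 p).1 (by simpa [castN] using e2)
      simpa using this
    simp only [f1, f2, Nat.beq_refl, Bool.and_self, Bool.not_true, Bool.false_or] at this
    rw [eq_of_eqN this]; simp [castN]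

end Cfsg.Agent.H2.Pm
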