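import Mathlib
import Cfsg.Agent.H2.Commutant
import Cfsg.Agent.H2.Perm5

/-! Rank 3 groups of Wielandt type. -/

namespace Cfsg.Agent.H2.Pm
open Cfsg.Agent.H4 Module LinearMap MulAction Matrix

variable {G Ω : Type*} [Group G] [MulAction G Ω]

theorem univ_of_valency_one [IsPreprimitive G Ω] {a b : Ω} (hab : b ≠ a) {g : G} (h1 : g • a = b)
    (h2 : g • b = a) (h : ∀ h : G, h • a = a → h • b = b) (c : Ω) : c = a ∨ c = b := by
  refine ((prim_block (G := G) (B := {a, b}) ?_).resolve_left fun hs =>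
    hab (hs (by simp) (by simp))).ge (Set.mem_univ c)
  have key : ∀ k : G, (k • a = a → k • b = b) ∧ (k • a = b → k • b = a) ∧ (k • b = a → k • a = b) ∧
      (k • b = b → k • a = a) := fun k => ⟨h k, fun e => by
        have := h (g * k) (by rw [mul_smul, e, h2])
        exact MulAction.injective g ((mul_smul _ _ _).symm.trans (this.trans h1.symm)), fun e => by
        have := h (k * g) (by rw [mul_smul, h1, e])
        rwa [mul_smul, h2] at this, fun e => by
        have := h (g * k * g) (by rw [mul_smul, mul_smul, h1, e, h2])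
        rw [mul_smul, mul_smul, h2] at this
        exact MulAction.injective g (this.trans h1.symm)⟩
  rintro k x (rfl | rfl) (e | e) y (rfl | rfl) <;> simp_all

theorem exists_of_rank_three [Finite Ω] {a : Ω}
    (h : Nat.card (orbitRel.Quotient (stabilizer G a) Ω) = 3) : ∃ b c : Ω, b ≠ a ∧ c ≠ a ∧
      c ∉ orbit (stabilizer G a) b ∧
      ∀ y, y = a ∨ y ∈ orbit (stabilizer G a) b ∨ y ∈ orbit (stabilizer G a) c := by
  classical
  have h1 : ∀ y, (Quotient.mk'' y : orbitRel.Quotient (stabilizer G a) Ω) = Quotient.mk'' a →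
      y = a := fun y e => by
    obtain ⟨g, hg⟩ := Quotient.exact' e
    exact hg.symm.trans g.2
  haveI := Fintype.ofFinite (orbitRel.Quotient (stabilizer G a) Ω)
  obtain ⟨q, r, hqr, e⟩ := Finset.card_eq_two.1 (show (Finset.univ.erase (Quotient.mk'' a :
      orbitRel.Quotient (stabilizer G a) Ω)).card = 2 by
    rw [Finset.card_erase_of_mem (Finset.mem_univ _), Finset.card_univ, ← Nat.card_eq_fintype_card,
      h])
  induction q using Quotient.inductionOn' with | h b => ?_
  induction r using Quotient.inductionOn' with | h c => ?_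
  refine ⟨b, c, ?_, ?_, fun hc => hqr (Quotient.sound' hc).symm, fun y => ?_⟩
  · rintro rfl; exact Finset.ne_of_mem_erase (e.ge (by simp)) rfl
  · rintro rfl; exact Finset.ne_of_mem_erase (e.ge (by simp)) rfl
  · refine or_iff_not_imp_left.2 fun hy => ?_
    have := e.le (Finset.mem_erase.2 ⟨mt (h1 y) hy, Finset.mem_univ _⟩)
    simp only [Finset.mem_insert, Finset.mem_singleton] at this
    exact this.imp Quotient.exact' Quotient.exact'

theorem wielandt_arith {m k δ : ℤ} (hk : 2 ≤ k) (hm : k + 1 ≤ m)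
    (h : 2 * m * k = k ^ 2 + (m - 1) * (k + m * δ) ^ 2 + m * (δ - k - m * δ) ^ 2) :
    m = 2 * (m - k - 1) ^ 2 + 2 * (m - k - 1) + 1 := by
  have h0 : 0 ≤ m * (δ - k - m * δ) ^ 2 := mul_nonneg (by omega) (sq_nonneg _)
  rcases (show δ ≤ -2 ∨ δ = -1 ∨ δ = 0 ∨ 1 ≤ δ by omega) with h1 | rfl | rfl | h1
  · have h2 : (m + 1) ^ 2 ≤ (k + m * δ) ^ 2 := by
      rw [← neg_sq (k + m * δ)]
      exact pow_le_pow_left₀ (by omega) (by nlinarith) 2
    nlinarith [mul_le_mul_of_nonneg_left h2 (show 0 ≤ m - 1 by omega)]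
  · exact mul_left_cancel₀ (show m ≠ 0 by omega) (by linear_combination h)
  · have : 2 * m * k * (k - 1) = 0 := by linear_combination -h
    simp only [mul_eq_zero] at this
    omega
  · have h2 : (k + m) ^ 2 ≤ (k + m * δ) ^ 2 := pow_le_pow_left₀ (by omega) (by nlinarith) 2
    nlinarith [mul_le_mul_of_nonneg_left h2 (show 0 ≤ m - 1 by omega), sq_nonneg (k - m)]

theorem InvM.eq_of_rank_three [IsPretransitive G Ω] [DecidableEq Ω] {R : Type*} [Semiring R]
    [Module R R] {a b c : Ω} (hb : b ≠ a) (hc : c ≠ a) (hbc : c ∉ orbit (stabilizer G a) b)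
    (h : ∀ y, y = a ∨ y ∈ orbit (stabilizer G a) b ∨ y ∈ orbit (stabilizer G a) c)
    {M : Matrix Ω Ω R} (hM : InvM G M) (x y : Ω) :
    M x y = M a a * (1 : Matrix Ω Ω R) x y + M a b * orbM G R a b x y + M a c * orbM G R a c x y := by
  obtain ⟨g, rfl⟩ := exists_smul_eq G a x
  obtain ⟨y, rfl⟩ := MulAction.surjective g y
  rw [hM g, invM_orbM R a b g, invM_orbM R a c g, one_apply]
  simp only [smul_left_cancel_iff]
  rcases h y with rfl | ⟨k, rfl⟩ | ⟨k, rfl⟩
  · simp [orbM_diag R hb, orbM_diag R hc]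
  · have h1 : a ≠ k • b := fun e => hb (MulAction.injective k (e.symm.trans k.2.symm))
    have h2 : orbM G R a b a (k • b) = 1 := if_pos ⟨k, k.2, rfl⟩
    have h3 : orbM G R a c a (k • b) = 0 := if_neg fun ⟨l, l1, l2⟩ =>
      hbc ⟨(⟨l, l1⟩ : stabilizer G a)⁻¹ * k, by
        change (l⁻¹ * k) • b = c
        rw [mul_smul, inv_smul_eq_iff]; exact l2.symm⟩
    simp only [h1, h2, h3, if_false, mul_zero, mul_one, zero_add, add_zero]
    exact (congrArg (M · _) k.2.symm).trans (hM k a b)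
  · have h1 : a ≠ k • c := fun e => hc (MulAction.injective k (e.symm.trans k.2.symm))
    have h2 : orbM G R a c a (k • c) = 1 := if_pos ⟨k, k.2, rfl⟩
    have h3 : orbM G R a b a (k • c) = 0 := if_neg fun ⟨l, l1, l2⟩ =>
      hbc ⟨k⁻¹ * (⟨l, l1⟩ : stabilizer G a), by
        change ((k : G)⁻¹ * l) • b = c
        rw [mul_smul, inv_smul_eq_iff]; exact l2⟩
    simp only [h1, h2, h3, if_false, mul_zero, mul_one, zero_add, add_zero]
    exact (congrArg (M · _) k.2.symm).trans (hM k a c)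

theorem InvM.col_sum [Fintype Ω] [IsPretransitive G Ω] {M : Matrix Ω Ω ℤ} (hM : InvM G M) (a : Ω) :
    ∑ y, M y a = ∑ y, M a y := by
  have h1 : ∑ x, ∑ y, M y x = ∑ x, ∑ y, M x y := Finset.sum_comm
  rw [Finset.sum_congr rfl fun x _ => show ∑ y, M y x = ∑ y, M y a from
    InvM.row_sum (G := G) (M := Mᵀ) (fun g x y => hM g y x) x a,
    Finset.sum_congr rfl fun x _ => hM.row_sum x a, Finset.sum_const, Finset.sum_const] at h1
  exact smul_right_injective ℤ (Finset.card_pos.2 ⟨a, Finset.mem_univ a⟩).ne' h1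

theorem wielandt_type [Fintype G] [Fintype Ω] [IsPreprimitive G Ω] {m : ℕ}
    (hm : Fintype.card Ω = 2 * m) {a b c : Ω} (hb : b ≠ a) (hc : c ≠ a)
    (hbc : c ∉ orbit (stabilizer G a) b)
    (h : ∀ y, y = a ∨ y ∈ orbit (stabilizer G a) b ∨ y ∈ orbit (stabilizer G a) c)
    (hle : Nat.card (orbit (stabilizer G a) b) ≤ Nat.card (orbit (stabilizer G a) c))
    {χ₁ χ₂ : G → ℂ} (h₁ : IsIrrCharacter G χ₁) (h₂ : IsIrrCharacter G χ₂)
    (hπ : (permRep ℂ G Ω).character = fun g => 1 + χ₁ g + χ₂ g) (hd₁ : χ₁ 1 = (m : ℂ) - 1)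
    (hd₂ : χ₂ 1 = m) : ∃ u : ℕ, 0 < u ∧ m = 2 * u ^ 2 + 2 * u + 1 ∧
      Nat.card (orbit (stabilizer G a) b) = u * (2 * u + 1) ∧
      Nat.card (orbit (stabilizer G a) c) = (u + 1) * (2 * u + 1) := by
  classical
  haveI : Nonempty Ω := ⟨a⟩
  have hk := sum_orbM (G := G) ℤ a b
  have hl := sum_orbM (G := G) ℤ a c
  have hkC := sum_orbM (G := G) ℂ a b
  have hk0 : 0 < Nat.card (orbit (stabilizer G a) b) :=
    Nat.card_pos_iff.2 ⟨⟨b, mem_orbit_self b⟩, inferInstance⟩
  have hk1 : Nat.card (orbit (stabilizer G a) b) = 1 → ∀ h : G, h • a = a → h • b = b :=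
    fun e h ha => congrArg Subtype.val ((Nat.card_eq_one_iff_unique.1 e).1.elim
      ⟨_, mem_orbit b (⟨h, ha⟩ : stabilizer G a)⟩ ⟨b, mem_orbit_self b⟩)
  generalize Nat.card (orbit (stabilizer G a) b) = k at *
  generalize Nat.card (orbit (stabilizer G a) c) = l at *
  have hrow : ∀ M : Matrix Ω Ω ℤ, InvM G M → ∑ y, M a y = M a a + M a b * k + M a c * l :=
    fun M hM => by
      rw [Finset.sum_congr rfl fun y _ => hM.eq_of_rank_three hb hc hbc h a y]
      simp [Finset.sum_add_distrib, ← Finset.mul_sum, hk, hl, one_apply]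
  have hn : 1 + k + l = 2 * m := by
    have := hrow (of fun _ _ => 1) fun _ _ _ => rfl
    simp only [of_apply, Finset.sum_const, Finset.card_univ, hm] at this
    simp at this; omega
  have hA := invM_orbM (G := G) ℤ a b
  have hsp : ∃ g : G, g • a = b ∧ g • b = a := by
    by_contra hn'
    have h1 := hrow (orbM G ℤ a b)ᵀ fun g x y => hA g y x
    simp only [transpose_apply, hA.col_sum, hk, orbM_diag ℤ hb] at h1
    simp only [orbM, of_apply, if_neg hn'] at h1
    split_ifs at h1 <;> omega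
  obtain ⟨g, g1, g2⟩ := hsp
  have hk2 : 2 ≤ k := by
    by_contra hlt
    rcases univ_of_valency_one hb g1 g2 (hk1 (by omega)) c with e | e
    · exact hc e
    · exact hbc (e ▸ mem_orbit_self _)
  have hsym : ∀ x y, orbM G ℤ a b y x = orbM G ℤ a b x y := fun x y => by
    simp only [orbM, of_apply]
    congr 1
    exact propext ⟨fun ⟨h, h1, h2⟩ => ⟨h * g, by simp [mul_smul, *]⟩,
      fun ⟨h, h1, h2⟩ => ⟨h * g, by simp [mul_smul, *]⟩⟩
  have hA2 : (orbM G ℤ a b * orbM G ℤ a b) a a = k := by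
    rw [mul_apply, ← hk]
    refine Finset.sum_congr rfl fun y _ => ?_
    rw [hsym a y]; simp [orbM]
  obtain ⟨β, γ, hβ⟩ : ∃ β γ : ℤ, orbM G ℂ a b * orbM G ℂ a b = ((k : ℂ) - γ) • (1 : Matrix Ω Ω ℂ) +
      (β : ℂ) • orbM G ℂ a b + (γ : ℂ) • of (fun _ _ : Ω => (1 : ℂ)) := by
    refine ⟨(orbM G ℤ a b * orbM G ℤ a b) a b - (orbM G ℤ a b * orbM G ℤ a b) a c,
      (orbM G ℤ a b * orbM G ℤ a b) a c, ?_⟩
    ext x y
    have h1 := (hA.mul hA).eq_of_rank_three hb hc hbc h x y
    have h2 := InvM.eq_of_rank_three (G := G) hb hc hbc h (M := of fun _ _ => (1 : ℤ))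
      (fun _ _ _ => rfl) x y
    have h3 : ∀ b x y, orbM G ℂ a b x y = orbM G ℤ a b x y := fun b x y => by
      simp [orbM, apply_ite]
    have h4 : (1 : Matrix Ω Ω ℂ) x y = (1 : Matrix Ω Ω ℤ) x y := by simp [one_apply, apply_ite]
    rw [hA2] at h1
    simp only [of_apply, one_mul] at h2
    simp only [Matrix.add_apply, Matrix.smul_apply, of_apply, smul_eq_mul, mul_apply (M := orbM G ℂ a b), h3, h4]
    rw [mul_apply] at h1
    have h5 := congrArg (Int.cast : ℤ → ℂ) h1
    have h6 := congrArg (Int.cast : ℤ → ℂ) h2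
    push_cast at h5 h6 ⊢
    linear_combination h5 - ((orbM G ℤ a b * orbM G ℤ a b) a c : ℂ) * h6
  have hin : ∀ ψ, classInner (permRep ℂ G Ω).character ψ =
      classInner (fun _ => 1) ψ + classInner χ₁ ψ + classInner χ₂ ψ := fun ψ => by
    rw [hπ, ← classInner_add_left, ← classInner_add_left]; rfl
  have h12 : χ₁ ≠ χ₂ := fun e => by
    rw [e, hd₂] at hd₁; exact one_ne_zero (by linear_combination hd₁ : (1 : ℂ) = 0)
  have h01 := hin fun _ => 1
  rw [mult_one, classInner_one_one] at h01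
  obtain ⟨n₁, hn₁⟩ := h₁.isCharacter.classInner_nat isCharacter_one
  obtain ⟨n₂, hn₂⟩ := h₂.isCharacter.classInner_nat isCharacter_one
  rw [hn₁, hn₂] at h01
  have h02 : 1 = 1 + n₁ + n₂ := by exact_mod_cast h01
  obtain rfl : n₁ = 0 := by omega
  obtain rfl : n₂ = 0 := by omega
  rw [Nat.cast_zero] at hn₁ hn₂
  have e1 := (classInner_eq_zero_symm _ _).1 hn₁
  have e2 := (classInner_eq_zero_symm _ _).1 hn₂
  have e3 := h₁.classInner_of_ne h₂ h12
  have e4 := h₂.classInner_of_ne h₁ h12.symm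
  have htr : ∀ M : Matrix Ω Ω ℂ, InvM G M → M.trace = ∑ y, M a y +
      om (permRep ℂ G Ω) χ₁ (toLin' M) * (m - 1) + om (permRep ℂ G Ω) χ₂ (toLin' M) * m := by
    intro M hM
    have := hM.comm.th_class.ext_irr (θ := (∑ y, M a y) • (fun _ => 1) +
      om (permRep ℂ G Ω) χ₁ (toLin' M) • χ₁ + om (permRep ℂ G Ω) χ₂ (toLin' M) • χ₂)
      ((((isClassFunction_const 1).smul _).add (h₁.isClassFunction.smul _)).add
        (h₂.isClassFunction.smul _)) fun ψ hψ => by
        simp only [classInner_add_left, classInner_smul_left]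
        by_cases f0 : ψ = fun _ => 1
        · rw [f0, hn₁, hn₂, classInner_one_one, ← hM.om_triv]; simp [om]
        by_cases f1 : ψ = χ₁
        · rw [f1, e1, e4, h₁.classInner_self]; simp [om]
        by_cases f2 : ψ = χ₂
        · rw [f2, e2, e3, h₂.classInner_self]; simp [om]
        have g0 := isIrrCharacter_one.classInner_of_ne hψ (Ne.symm f0)
        have g1 := h₁.classInner_of_ne hψ (Ne.symm f1)
        have g2 := h₂.classInner_of_ne hψ (Ne.symm f2)
        rw [g0, g1, g2]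
        simpa [om] using om_eq_zero hψ (by rw [hin, g0, g1, g2]; simp) (toLin' M)
    have h1 := congrFun this 1
    rw [th, map_one, one_mul, trace_toLin'_eq] at h1
    simpa [hd₁, hd₂] using h1
  have hAC := invM_orbM (G := G) ℂ a b
  have hsq : ∀ χ, IsIrrCharacter G χ → classInner (permRep ℂ G Ω).character χ = 1 →
      classInner (fun _ => 1) χ = 0 → om (permRep ℂ G Ω) χ (toLin' (orbM G ℂ a b * orbM G ℂ a b)) =
        om (permRep ℂ G Ω) χ (toLin' (orbM G ℂ a b)) ^ 2 ∧
      om (permRep ℂ G Ω) χ (toLin' (orbM G ℂ a b)) ^ 2 = k - γ +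
        β * om (permRep ℂ G Ω) χ (toLin' (orbM G ℂ a b)) := fun χ f1 f2 f3 => by
    have := om_mul f1 f2 hAC.comm (toLin' (orbM G ℂ a b))
    rw [End.mul_eq_comp, ← toLin'_mul, ← sq (om _ _ _)] at this
    refine ⟨this, ?_⟩
    rw [← this, hβ, map_add, map_add, map_smul, map_smul, map_smul, om_add, om_add, om_smul,
      om_smul, om_smul, om_ones, toLin'_one, ← End.one_eq_id, om_one, f2, f3]
    simp
  obtain ⟨s1, s2⟩ := hsq χ₁ h₁ (by rw [hin, e1, e4, h₁.classInner_self]; simp) e1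
  obtain ⟨s3, s4⟩ := hsq χ₂ h₂ (by rw [hin, e2, e3, h₂.classInner_self]; simp) e2
  have t1 := htr _ hAC
  have t2 := htr _ (hAC.mul hAC)
  have t3 := om_mul isIrrCharacter_one mult_one hAC.comm (toLin' (orbM G ℂ a b))
  rw [End.mul_eq_comp, ← toLin'_mul, (hAC.mul hAC).om_triv a, hAC.om_triv a, hkC] at t3
  rw [s1, s3, t3, hβ] at t2
  have t4 : (orbM G ℂ a b).trace = 0 := Finset.sum_eq_zero fun x _ => orbM_diag ℂ hb x
  rw [t4, hkC] at t1
  simp only [trace_add, trace_smul, t4, Matrix.trace_one, smul_eq_mul, hm] at t2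
  simp only [Matrix.trace, diag_apply, of_apply, Finset.sum_const, Finset.card_univ, hm] at t2
  generalize om (permRep ℂ G Ω) χ₁ (toLin' (orbM G ℂ a b)) = x at *
  generalize om (permRep ℂ G Ω) χ₂ (toLin' (orbM G ℂ a b)) = y at *
  push_cast at t2
  simp only [nsmul_eq_mul, mul_one, Nat.cast_mul, Nat.cast_ofNat] at t2
  rcases mul_eq_zero.1 (show (x - y) * (x + y - β) = 0 by linear_combination s2 - s4) with e | e
  · have : (2 * m * k * (2 * m - 1 - k) : ℂ) = 0 := by
      obtain rfl : x = y := sub_eq_zero.1 e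
      linear_combination (2 * m - 1) * t2 + (k - (2 * m - 1) * x) * t1
    have h5 : (2 * m * k * (2 * m - 1 - k) : ℤ) = 0 := by exact_mod_cast this
    simp only [mul_eq_zero] at h5
    omega
  have h5 : (2 * m * k : ℂ) = k ^ 2 + (m - 1) * (k + m * β) ^ 2 + m * (β - k - m * β) ^ 2 := by
    obtain rfl : x = k + m * β := by linear_combination t1 + m * e
    obtain rfl : y = β - k - m * β := by linear_combination e
    linear_combination t2
  have h6 := wielandt_arith (m := m) (k := k) (δ := β) (by omega) (by omega) (by exact_mod_cast h5)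
  obtain ⟨u, rfl⟩ : ∃ u, m = k + 1 + u := ⟨m - k - 1, by omega⟩
  have h7 : k + 1 + u = 2 * u ^ 2 + 2 * u + 1 := by
    push_cast at h6
    simp only [add_sub_cancel_left, show ∀ a b : ℤ, a + 1 + b - a - 1 = b from fun a b => by ring]
      at h6
    exact_mod_cast h6
  refine ⟨u, Nat.pos_of_ne_zero (by rintro rfl; omega), h7, by nlinarith, by nlinarith⟩

end Cfsg.Agent.H2.Pm
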